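import Mathlib
import Cfsg.Prelude
import Cfsg.Agent.Lib.Helper1.HallLe
import Cfsg.Agent.Lib.Helper1.HallConj
import Cfsg.Agent.Lib.Helper20.BG.S1408Core
import Cfsg.Agent.Lib.Helper23.Compl
import Cfsg.Agent.Lib.Helper24.PRank
import Cfsg.Agent.Lib.Helper35.BG.Basic
import Cfsg.Agent.Lib.Helper67.BG.Basics
import Cfsg.Agent.Lib.Helper75.BGUtil

/-!
# Bender–Glauberman 12.8–12.10 (statement S1420), conditional core

`s1420_core` proves the statement of S1420 for one maximal subgroup `M`, taking as explicit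
hypotheses the consequences of the earlier statements S1350, S1404, S1415, S1416, S1417, S1418
(for this `M`) and `α(M) ⊆ σ(M)`.
-/

set_option autoImplicit false

namespace Cfsg.Agent.Lib.Helper76.BG

open Cfsg
open Pointwise

/-- A finite nilpotent group all of whose Sylow subgroups are commutative is commutative. -/
theorem comm_of_nilpotent_of_sylow_comm {N : Type*} [Group N] [Finite N]
    (hN : Group.IsNilpotent N)
    (h : ∀ (p : ℕ) [Fact p.Prime] (P : Sylow p N), ∀ a ∈ (P : Subgroup N), ∀ b ∈ (P : Subgroup N),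
      a * b = b * a) : ∀ a b : N, a * b = b * a := by
  have h4 := ((Group.isNilpotent_of_finite_tfae (G := N)).out 0 4).mp hN
  obtain ⟨e⟩ := h4
  intro a b
  apply e.symm.injective
  rw [map_mul, map_mul]
  funext q
  funext P
  have : Fact (q.1).Prime := ⟨Nat.prime_of_mem_primeFactors q.2⟩
  have h5 := h q.1 P _ (e.symm a q P).2 _ (e.symm b q P).2
  exact Subtype.ext h5

/-- Coprime action on a group of order `p ^ 2` fixing a non-identity element, by an element whose
`r`-th power acts trivially, `r > p` prime: the action is trivial. -/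
theorem centralizes_of_prime_gt {G : Type*} [Group G] {p r : ℕ} (hp : p.Prime) (hr : r.Prime)
    (hpr : p < r) (A : Subgroup G) (hcard : Nat.card A = p ^ 2) (z w : G)
    (hz : ∀ a ∈ A, z * a * z⁻¹ ∈ A) (hw : w ∈ A) (hw1 : w ≠ 1) (hzw : w * z = z * w)
    (hzr : ∀ a ∈ A, z ^ r * a = a * z ^ r) : ∀ a ∈ A, a * z = z * a := by
  classical
  have : Finite A := Nat.finite_of_card_ne_zero (by rw [hcard]; exact pow_ne_zero _ hp.ne_zero)
  let _ : Fintype A := Fintype.ofFinite A
  have : Fact r.Prime := ⟨hr⟩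
  let f : Function.End A := fun a => ⟨z * a * z⁻¹, hz a a.2⟩
  have hfpow : ∀ k : ℕ, ∀ a : A, (((f ^ k) a : A) : G) = z ^ k * a * (z ^ k)⁻¹ := by
    intro k
    induction k with
    | zero =>
      intro a
      rw [pow_zero, pow_zero]
      show (a : G) = 1 * a * 1⁻¹
      group
    | succ k ih =>
      intro a
      have h1 : (f ^ (k + 1)) a = (f ^ k) (f a) := by rw [pow_succ]; rfl
      rw [h1, ih (f a)]
      show z ^ k * (z * a * z⁻¹) * (z ^ k)⁻¹ = z ^ (k + 1) * a * (z ^ (k + 1))⁻¹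
      rw [pow_succ]
      group
  have hf : f ^ r ^ 1 = 1 := by
    funext a
    apply Subtype.ext
    rw [pow_one, hfpow r a, hzr a a.2]
    show (a : G) * z ^ r * (z ^ r)⁻¹ = a
    group
  have hmod := Equiv.Perm.card_fixedPoints_modEq (p := r) (n := 1) hf
  rw [← Nat.card_eq_fintype_card, ← Nat.card_eq_fintype_card] at hmod
  let F : Subgroup A := (Subgroup.centralizer ({z} : Set G)).subgroupOf A
  have hFset : (F : Set A) = Function.fixedPoints f := by
    ext a
    rw [Function.mem_fixedPoints, Function.IsFixedPt]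
    rw [SetLike.mem_coe, Subgroup.mem_subgroupOf, Subgroup.mem_centralizer_singleton_iff]
    constructor
    · intro h
      apply Subtype.ext
      show z * (a : G) * z⁻¹ = a
      rw [← h]; group
    · intro h
      have h2 : z * (a : G) * z⁻¹ = a := congrArg Subtype.val h
      calc (a : G) * z = (z * (a : G) * z⁻¹) * z := by rw [h2]
        _ = z * a := by group
  have hFcard : Nat.card (Function.fixedPoints f) = Nat.card F := by
    rw [← hFset]; rfl
  rw [hFcard, hcard] at hmod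
  have hdvd : Nat.card F ∣ p ^ 2 := hcard ▸ Subgroup.card_subgroup_dvd_card F
  obtain ⟨m, hm2, hm⟩ := (Nat.dvd_prime_pow hp).mp hdvd
  have hwF : (⟨w, hw⟩ : A) ∈ F := by
    rw [Subgroup.mem_subgroupOf, Subgroup.mem_centralizer_singleton_iff]
    exact hzw
  have hm0 : m ≠ 0 := by
    intro h0
    rw [h0, pow_zero] at hm
    have hbot : F = ⊥ := Subgroup.card_eq_one.mp hm
    rw [hbot, Subgroup.mem_bot] at hwF
    exact hw1 (congrArg Subtype.val hwF)
  have hm1 : m ≠ 1 := by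
    intro h1
    rw [h1, pow_one] at hm
    rw [hm] at hmod
    have hle : p ≤ p ^ 2 := by nlinarith [hp.two_le]
    have h3 : r ∣ p ^ 2 - p := (Nat.modEq_iff_dvd' hle).mp hmod.symm
    have h4 : p ^ 2 - p = p * (p - 1) := by
      rw [Nat.mul_sub, mul_one, sq]
    rw [h4] at h3
    rcases (Nat.Prime.dvd_mul hr).mp h3 with h5 | h5
    · have := Nat.le_of_dvd hp.pos h5
      omega
    · have := Nat.le_of_dvd (by have := hp.two_le; omega) h5
      omega
  have hm2' : m = 2 := by omega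
  rw [hm2', ← hcard] at hm
  have htop : F = ⊤ := (Subgroup.card_eq_iff_eq_top F).mp hm
  intro a ha
  have haF : (⟨a, ha⟩ : A) ∈ F := by rw [htop]; exact Subgroup.mem_top _
  rw [Subgroup.mem_subgroupOf, Subgroup.mem_centralizer_singleton_iff] at haF
  exact haF

/-- `¬ PRankLE p 1 P` yields an elementary abelian subgroup of order `p ^ 2` inside `P`. -/
theorem exists_ea_sq_of_not_rank_one {G : Type*} [Group G] [Finite G] (P : Subgroup G) (p : ℕ)
    [hp : Fact p.Prime] (hr1 : ¬ PRankLE p 1 P) :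
    ∃ B : Subgroup G, B ≤ P ∧ IsElementaryAbelian p B ∧ Nat.card B = p ^ 2 := by
  have hpp : p.Prime := hp.out
  rw [Cfsg.Agent.Lib.Helper24.pRankLE_subgroup_iff] at hr1
  rw [not_forall] at hr1
  obtain ⟨A, hA⟩ := hr1
  rw [Classical.not_imp] at hA
  obtain ⟨hAP, hA⟩ := hA
  rw [Classical.not_imp] at hA
  obtain ⟨hAc, hA⟩ := hA
  rw [Classical.not_imp] at hA
  obtain ⟨hAe, hAcard⟩ := hA
  have hAp : IsPGroup p A := by
    intro ⟨a, ha⟩
    refine ⟨1, ?_⟩
    apply Subtype.ext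
    rw [pow_one]
    exact hAe a ha
  obtain ⟨n, hn⟩ := IsPGroup.iff_card.mp hAp
  have h1 : 2 ≤ n := by
    by_contra h
    have h' : n ≤ 1 := by omega
    have h2 := Nat.pow_le_pow_right hpp.pos h'
    rw [hn] at hAcard
    exact hAcard h2
  have hdvd : p ^ 2 ∣ Nat.card A := by rw [hn]; exact pow_dvd_pow p h1
  obtain ⟨B', hB'⟩ := Sylow.exists_subgroup_card_pow_prime p hdvd
  refine ⟨B'.map A.subtype, (Subgroup.map_subtype_le B').trans hAP, ⟨?_, ?_⟩, ?_⟩
  · rw [isMulCommutative_iff]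
    rintro ⟨a, ha⟩ ⟨b, hb⟩
    apply Subtype.ext
    exact hAc a (Subgroup.map_subtype_le B' ha) b (Subgroup.map_subtype_le B' hb)
  · intro a ha
    exact hAe a (Subgroup.map_subtype_le B' ha)
  · rw [Subgroup.card_map_of_injective A.subtype_injective, hB']

/-- A conjugate of an elementary abelian subgroup is elementary abelian. -/
theorem ea_map_conj {G : Type*} [Group G] {p : ℕ} {A : Subgroup G}
    (hA : IsElementaryAbelian p A) (g : G) :
    IsElementaryAbelian p (A.map (MulAut.conj g).toMonoidHom) := by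
  constructor
  · rw [isMulCommutative_iff]
    rintro ⟨_, a, ha, rfl⟩ ⟨_, b, hb, rfl⟩
    apply Subtype.ext
    show (MulAut.conj g).toMonoidHom a * (MulAut.conj g).toMonoidHom b =
      (MulAut.conj g).toMonoidHom b * (MulAut.conj g).toMonoidHom a
    rw [← map_mul, ← map_mul, Cfsg.Agent.Lib.Helper20.BG.ea_comm hA a ha b hb]
  · rintro _ ⟨a, ha, rfl⟩
    rw [← map_pow, hA.2 a ha, map_one]

/-- `|M| = |M : M_σ| · |M_σ|` with coprime factors when `M_σ` is a Hall subgroup. -/
theorem card_sigma_split {G : Type*} [Group G] [Finite G] (M : Subgroup G)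
    (hHall : IsPiHallOf (sigma M) (sigmaCore M) M) :
    Nat.card M = (sigmaCore M).relIndex M * Nat.card (sigmaCore M) ∧
      ((sigmaCore M).relIndex M).Coprime (Nat.card (sigmaCore M)) := by
  constructor
  · rw [Cfsg.Agent.Lib.Helper67.BG.relIndex_sigmaCore, Cfsg.Agent.Lib.Helper67.BG.card_sigmaCore,
      mul_comm]
    exact (Subgroup.card_mul_index _).symm
  · rw [Nat.coprime_iff_gcd_eq_one]
    by_contra hne
    obtain ⟨q, hq, hdvd⟩ := Nat.exists_prime_and_dvd hne
    have h1 : q ∣ (sigmaCore M).relIndex M := hdvd.trans (Nat.gcd_dvd_left _ _)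
    have h2 : q ∣ Nat.card (sigmaCore M) := hdvd.trans (Nat.gcd_dvd_right _ _)
    exact hHall.2.2 q hq (hHall.2.1 q hq h2) h1

/-- The order of a complement of `M_σ` in `M`. -/
theorem card_compl_eq_relIndex {G : Type*} [Group G] [Finite G] {M E : Subgroup G}
    (hE : IsComplIn E (sigmaCore M) M) : Nat.card E = (sigmaCore M).relIndex M := by
  have h1 := Cfsg.Agent.Lib.Helper23.card_of_isComplIn hE
  have h2 : Nat.card M = (sigmaCore M).relIndex M * Nat.card (sigmaCore M) := by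
    rw [Cfsg.Agent.Lib.Helper67.BG.relIndex_sigmaCore, Cfsg.Agent.Lib.Helper67.BG.card_sigmaCore,
      mul_comm]
    exact (Subgroup.card_mul_index _).symm
  have h3 : 0 < Nat.card (sigmaCore M) := Nat.card_pos
  exact Nat.eq_of_mul_eq_mul_right h3 (h1.symm.trans h2)

/-- A subgroup of `M` of the right order is a complement of `M_σ`. -/
theorem isComplIn_of_card {G : Type*} [Group G] [Finite G] (M : Subgroup G) (H : Subgroup M)
    (hcard : Nat.card H = (piCore (sigma M) M).index)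
    (hcop : (Nat.card (piCore (sigma M) M)).Coprime (piCore (sigma M) M).index) :
    IsComplIn (H.map M.subtype) (sigmaCore M) M := by
  have hc : H.IsComplement' (piCore (sigma M) M) :=
    Subgroup.isComplement'_of_coprime
      (by rw [hcard, mul_comm]; exact Subgroup.card_mul_index _)
      (by rw [hcard]; exact hcop.symm)
  refine ⟨Subgroup.map_subtype_le _, Cfsg.Agent.Lib.Helper67.BG.sigmaCore_le M, ?_, ?_⟩
  · rw [eq_bot_iff]
    rintro x ⟨⟨a, ha, rfl⟩, ⟨b, hb, hab⟩⟩
    have hab' : b = a := M.subtype_injective hab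
    subst hab'
    have hdisj := hc.disjoint
    have hmem : b ∈ H ⊓ (piCore (sigma M) M) := ⟨ha, hb⟩
    rw [hdisj.eq_bot, Subgroup.mem_bot] at hmem
    rw [Subgroup.mem_bot, hmem]
    rfl
  · intro m hm
    obtain ⟨⟨⟨a, ha⟩, ⟨b, hb⟩⟩, hab⟩ := hc.2 (⟨m, hm⟩ : M)
    refine ⟨(a : G), ⟨a, ha, rfl⟩, (b : G), ⟨b, hb, rfl⟩, ?_⟩
    have h5 := congrArg (fun t : M => (t : G)) hab
    simpa using h5.symm

/-- Every `σ(M)'`-subgroup of `M` lies in a complement of `M_σ` (Hall). -/
theorem exists_compl_ge {G : Type*} [Group G] [Finite G] (hG : IsMinSimpleOddOrder G)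
    (M : Subgroup G) (hM : IsCoatom M) (hHall : IsPiHallOf (sigma M) (sigmaCore M) M)
    (K : Subgroup G) (hKM : K ≤ M)
    (hK : ∀ q : ℕ, q.Prime → q ∣ Nat.card K → q ∉ sigma M) :
    ∃ E' : Subgroup G, IsComplIn E' (sigmaCore M) M ∧ K ≤ E' := by
  have : Group.IsSolvable M := Cfsg.Agent.Lib.Helper35.BG.isSolvable_of_ne_top hG hM.1
  obtain ⟨hcard, hcop⟩ := card_sigma_split M hHall
  have hK' : (Nat.card (K.subgroupOf M)).Coprime (Nat.card (sigmaCore M)) := by
    rw [Nat.card_congr (Subgroup.subgroupOfEquivOfLe hKM).toEquiv, Nat.coprime_iff_gcd_eq_one]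
    by_contra hne
    obtain ⟨q, hq, hdvd⟩ := Nat.exists_prime_and_dvd hne
    exact hK q hq (hdvd.trans (Nat.gcd_dvd_left _ _))
      (hHall.2.1 q hq (hdvd.trans (Nat.gcd_dvd_right _ _)))
  obtain ⟨H, hHcard, hKH⟩ := Cfsg.Agent.Lib.Helper1.hall_le _ _ hcard hcop (K.subgroupOf M) hK'
  refine ⟨H.map M.subtype, isComplIn_of_card M H ?_ ?_, ?_⟩
  · rw [hHcard, Cfsg.Agent.Lib.Helper67.BG.relIndex_sigmaCore]
  · have h6 := hcop.symm
    rwa [Cfsg.Agent.Lib.Helper67.BG.relIndex_sigmaCore,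
      Cfsg.Agent.Lib.Helper67.BG.card_sigmaCore] at h6
  · intro k hk
    exact ⟨⟨k, hKM hk⟩, hKH (Subgroup.mem_subgroupOf.mpr hk), rfl⟩

/-- Complements of `M_σ` in `M` are conjugate in `M` (Hall). -/
theorem exists_conj_le_compl {G : Type*} [Group G] [Finite G] (hG : IsMinSimpleOddOrder G)
    (M : Subgroup G) (hM : IsCoatom M) (hHall : IsPiHallOf (sigma M) (sigmaCore M) M)
    (E₁ E₂ : Subgroup G) (h₁ : IsComplIn E₁ (sigmaCore M) M)
    (h₂ : IsComplIn E₂ (sigmaCore M) M) :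
    ∃ g ∈ M, ∀ a ∈ E₁, g * a * g⁻¹ ∈ E₂ := by
  have : Group.IsSolvable M := Cfsg.Agent.Lib.Helper35.BG.isSolvable_of_ne_top hG hM.1
  obtain ⟨hcard, hcop⟩ := card_sigma_split M hHall
  have c₁ : Nat.card (E₁.subgroupOf M) = (sigmaCore M).relIndex M := by
    rw [Nat.card_congr (Subgroup.subgroupOfEquivOfLe h₁.1).toEquiv]
    exact card_compl_eq_relIndex h₁
  have c₂ : Nat.card (E₂.subgroupOf M) = (sigmaCore M).relIndex M := by
    rw [Nat.card_congr (Subgroup.subgroupOfEquivOfLe h₂.1).toEquiv]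
    exact card_compl_eq_relIndex h₂
  obtain ⟨g, hg⟩ := Cfsg.Agent.Lib.Helper1.hall_conj _ _ hcard hcop
    (E₁.subgroupOf M) (E₂.subgroupOf M) c₁ c₂
  refine ⟨g, g.2, fun a ha => ?_⟩
  have h3 : MulAut.conj g • (⟨a, h₁.1 ha⟩ : M) ∈ MulAut.conj g • (E₁.subgroupOf M) :=
    Subgroup.smul_mem_pointwise_smul _ _ _ (Subgroup.mem_subgroupOf.mpr ha)
  rw [hg, Subgroup.mem_subgroupOf] at h3
  exact h3

/-- A `q`-subgroup of `M` with `q ∉ σ(M)` is commutative. -/
theorem comm_of_not_sigma {G : Type*} [Group G] [Finite G] (hG : IsMinSimpleOddOrder G)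
    (M : Subgroup G)
    (hα : ∀ q : ℕ, q ∈ alpha M → q ∈ sigma M)
    (h1417 : ∀ (p : ℕ) [Fact p.Prime], p ∈ tau2 M → ∀ A : Subgroup G,
      (A ≤ M ∧ IsElementaryAbelian p A ∧ Nat.card A = p ^ 2) →
      (∀ P : Sylow p M, IsMulCommutative (P : Subgroup M)) ∧
        (∀ Mstar : Subgroup G, IsCoatom Mstar → Mstar ≠ M → A ≤ Mstar →
          sigmaCore M ⊓ Mstar = ⊥))
    (q : ℕ) [hq : Fact q.Prime] (hqs : q ∉ sigma M) (Q : Subgroup G) (hQ : IsPGroup q Q)
    (hQM : Q ≤ M) : ∀ a ∈ Q, ∀ b ∈ Q, a * b = b * a := by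
  by_cases hr1 : PRankLE q 1 M
  · by_cases hq2 : q = 2
    · subst hq2
      have hodd := Cfsg.Agent.Lib.Helper35.BG.odd_card_subgroup hG Q
      obtain ⟨n, hn⟩ := IsPGroup.iff_card.mp hQ
      have hn0 : n = 0 := by
        by_contra h0
        rw [hn] at hodd
        exact (Nat.not_even_iff_odd.mpr hodd) ((Nat.even_pow' h0).mpr even_two)
      rw [hn0, pow_zero] at hn
      have hbot : Q = ⊥ := Subgroup.card_eq_one.mp hn
      intro a ha b hb
      rw [hbot, Subgroup.mem_bot] at ha hb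
      rw [ha, hb]
    · have hQr : PRankLE q 1 Q :=
        (Cfsg.Agent.Lib.Helper24.pRankLE_subgroup_iff q 1 Q).mpr (fun A hAQ hc he =>
          (Cfsg.Agent.Lib.Helper24.pRankLE_subgroup_iff q 1 M).mp hr1 A (hAQ.trans hQM) hc he)
      have hc : IsCyclic Q := Cfsg.Agent.Lib.Helper75.BG.isCyclic_of_pRankLE_one q hq2 hQ hQr
      intro a ha b hb
      obtain ⟨g, hg⟩ := hc.exists_generator
      obtain ⟨m, hm⟩ := Subgroup.mem_zpowers_iff.mp (hg ⟨a, ha⟩)
      obtain ⟨n, hn⟩ := Subgroup.mem_zpowers_iff.mp (hg ⟨b, hb⟩)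
      have h7 : (⟨a, ha⟩ : Q) * ⟨b, hb⟩ = ⟨b, hb⟩ * ⟨a, ha⟩ := by
        rw [← hm, ← hn, ← zpow_add, ← zpow_add, add_comm]
      exact congrArg Subtype.val h7
  · have hr2 : PRankLE q 2 M := by
      by_contra h
      exact hqs (hα q ⟨hq.out, h⟩)
    have hτ : q ∈ tau2 M := ⟨hq.out, hqs, hr2, hr1⟩
    obtain ⟨A, hA⟩ := Cfsg.Agent.Lib.Helper20.BG.exists_ea_sq M q hr2 hr1
    have hcomm := (h1417 q hτ A hA).1
    have hQ' : IsPGroup q (Q.subgroupOf M) := hQ.comap_subtype
    obtain ⟨P, hP⟩ := hQ'.exists_le_sylow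
    intro a ha b hb
    have ha' : (⟨a, hQM ha⟩ : M) ∈ (P : Subgroup M) := hP (Subgroup.mem_subgroupOf.mpr ha)
    have hb' : (⟨b, hQM hb⟩ : M) ∈ (P : Subgroup M) := hP (Subgroup.mem_subgroupOf.mpr hb)
    have h3 := isMulCommutative_iff.mp (hcomm P) ⟨⟨a, hQM ha⟩, ha'⟩ ⟨⟨b, hQM hb⟩, hb'⟩
    have h4 := congrArg (fun t : (P : Subgroup M) => ((t : M) : G)) h3
    exact h4

/-- **BG 12.8–12.10 (S1420), conditional core.** The hypotheses are the consequences, for this
`M`, of S1350 (`hHall`), S1403/S1405 (`hα`), S1404, S1415, S1416, S1417 and S1418. -/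
theorem s1420_core {G : Type*} [Group G] [Finite G] (hG : Cfsg.IsMinSimpleOddOrder G)
    (M : Subgroup G) (hM : IsCoatom M) (E : Subgroup G)
    (hE : Cfsg.IsComplIn E (Cfsg.sigmaCore M) M)
    (hHall : Cfsg.IsPiHallOf (Cfsg.sigma M) (Cfsg.sigmaCore M) M)
    (hα : ∀ q : ℕ, q ∈ Cfsg.alpha M → q ∈ Cfsg.sigma M)
    (h1404 : ∀ (p : ℕ) [Fact p.Prime], p ∈ Cfsg.sigma M → ∀ X : Subgroup G, IsPGroup p X →
      X ≠ ⊥ → X ≤ M →
      Subgroup.normalizer (X : Set G) =
        (M ⊓ Subgroup.normalizer (X : Set G)) ⊔ Subgroup.centralizer (X : Set G))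
    (h1415 : Group.IsNilpotent ↥⁅E, E⁆)
    (h1416 : ∀ (p : ℕ) [Fact p.Prime] (A : Subgroup G),
      (A ≤ M ∧ Cfsg.IsElementaryAbelian p A ∧ Nat.card A = p ^ 2) →
      Subgroup.centralizer (A : Set G) ≤ M)
    (h1417 : ∀ (p : ℕ) [Fact p.Prime], p ∈ Cfsg.tau2 M → ∀ A : Subgroup G,
      (A ≤ M ∧ Cfsg.IsElementaryAbelian p A ∧ Nat.card A = p ^ 2) →
      (∀ P : Sylow p M, IsMulCommutative (P : Subgroup M)) ∧
        (∀ Mstar : Subgroup G, IsCoatom Mstar → Mstar ≠ M → A ≤ Mstar →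
          Cfsg.sigmaCore M ⊓ Mstar = ⊥))
    (h1418 : ∀ E' : Subgroup G, Cfsg.IsComplIn E' (Cfsg.sigmaCore M) M →
      ∀ (p : ℕ) [Fact p.Prime], p ∈ Cfsg.tau2 M → ∀ A : Subgroup G,
      (A ≤ E' ∧ Cfsg.IsElementaryAbelian p A ∧ Nat.card A = p ^ 2) →
      E' ≤ Subgroup.normalizer (A : Set G) ∧
        ∀ X : Subgroup G, X ≤ E' → Nat.card X = p → X ≤ A) :
    (∀ N : Subgroup G, N ≤ M → Group.IsNilpotent N → (∀ p : ℕ, p.Prime → p ∣ Nat.card N → p ∉ Cfsg.sigma M) → IsMulCommutative N) ∧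
      IsMulCommutative ↥⁅E, E⁆ ∧
      (∀ (p : ℕ) (P : Subgroup G), p ∈ Cfsg.sigma M → IsPGroup p P → P ≤ M → ¬ IsCyclic P → Subgroup.normalizer (P : Set G) ≤ M) ∧
      ∀ x ∈ M, x ≠ 1 → (∀ p : ℕ, p.Prime → p ∣ orderOf x → p ∈ Cfsg.tau2 M) → x ∈ Cfsg.sigmaHat M →
        Subgroup.centralizer ({x} : Set G) ≤ M ∧ ∀ L : Subgroup G, IsCoatom L → Subgroup.centralizer ({x} : Set G) ≤ L → L = M := by
  -- (1)
  have part1 : ∀ N : Subgroup G, N ≤ M → Group.IsNilpotent N →
      (∀ p : ℕ, p.Prime → p ∣ Nat.card N → p ∉ Cfsg.sigma M) → IsMulCommutative N := by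
    intro N hNM hN hprimes
    rw [isMulCommutative_iff]
    refine comm_of_nilpotent_of_sylow_comm hN (fun p _ P x hx y hy => ?_)
    by_cases hdvd : p ∣ Nat.card N
    · have hps := hprimes p Fact.out hdvd
      have hQ : IsPGroup p ((P : Subgroup N).map N.subtype) := P.isPGroup'.map N.subtype
      have key := comm_of_not_sigma hG M hα h1417 p hps _ hQ
        ((Subgroup.map_subtype_le _).trans hNM) x ⟨x, hx, rfl⟩ y ⟨y, hy, rfl⟩
      exact Subtype.ext key
    · have hcard : Nat.card (P : Subgroup N) = 1 := by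
        rw [Sylow.card_eq_multiplicity, Nat.factorization_eq_zero_of_not_dvd hdvd, pow_zero]
      have hbot := Subgroup.card_eq_one.mp hcard
      rw [hbot, Subgroup.mem_bot] at hx hy
      rw [hx, hy]
  refine ⟨part1, ?_, ?_, ?_⟩
  · -- (2)
    have hEE : ⁅E, E⁆ ≤ E := by
      rw [Subgroup.commutator_le]
      intro g₁ h₁ g₂ h₂
      rw [commutatorElement_def]
      exact E.mul_mem (E.mul_mem (E.mul_mem h₁ h₂) (E.inv_mem h₁)) (E.inv_mem h₂)
    refine part1 ⁅E, E⁆ (hEE.trans hE.1) h1415 ?_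
    intro p hp hdvd hps
    have h1 : p ∣ Nat.card E := hdvd.trans (Subgroup.card_dvd_of_le hEE)
    rw [card_compl_eq_relIndex hE] at h1
    exact hHall.2.2 p hp hps h1
  · -- (3)
    intro p P hps hP hPM hnc
    have : Fact p.Prime := ⟨hps.1⟩
    have hP1 : P ≠ ⊥ := by
      intro hbot
      apply hnc
      rw [hbot]
      infer_instance
    have hp2 : p ≠ 2 := by
      intro h2
      have hodd := Cfsg.Agent.Lib.Helper35.BG.odd_card_subgroup hG P
      have hdvd := Cfsg.Agent.Lib.Helper67.BG.dvd_card_of_isPGroup_ne_bot hP hP1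
      rw [h2] at hdvd
      exact (Nat.not_even_iff_odd.mpr hodd) (even_iff_two_dvd.mpr hdvd)
    have hr1 : ¬ PRankLE p 1 P := fun h =>
      hnc (Cfsg.Agent.Lib.Helper75.BG.isCyclic_of_pRankLE_one p hp2 hP h)
    obtain ⟨B, hBP, hBea, hBcard⟩ := exists_ea_sq_of_not_rank_one P p hr1
    have hCB : Subgroup.centralizer (B : Set G) ≤ M := h1416 p B ⟨hBP.trans hPM, hBea, hBcard⟩
    have hCP : Subgroup.centralizer (P : Set G) ≤ M :=
      (Cfsg.Agent.Lib.Helper35.BG.centralizer_anti hBP).trans hCB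
    exact (h1404 p hps P hP hP1 hPM).le.trans (sup_le inf_le_left hCP)
  · -- (4)
    intro x hxM hx1 hxτ hxσ
    obtain ⟨-, y, hyσ, hy1, hxy⟩ := hxσ
    have hn0 : 0 < orderOf x := orderOf_pos x
    have hn1 : orderOf x ≠ 1 := fun h => hx1 (orderOf_eq_one_iff.mp h)
    obtain ⟨p, hp⟩ : ∃ p : ℕ, p = (orderOf x).minFac := ⟨_, rfl⟩
    have hpp : p.Prime := hp ▸ Nat.minFac_prime hn1
    have : Fact p.Prime := ⟨hpp⟩
    have hpn : p ∣ orderOf x := hp ▸ Nat.minFac_dvd _
    have hpτ : p ∈ tau2 M := hxτ p hpp hpn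
    have hxZ : Subgroup.zpowers x ≤ M := (Subgroup.zpowers_le).mpr hxM
    obtain ⟨E', hE', hxE'⟩ := exists_compl_ge hG M hM hHall (Subgroup.zpowers x) hxZ (by
      intro q hq hqd
      rw [Nat.card_zpowers] at hqd
      exact (hxτ q hq hqd).2.1)
    have hxE : x ∈ E' := hxE' (Subgroup.mem_zpowers x)
    obtain ⟨A₀, hA₀M, hA₀ea, hA₀card⟩ :=
      Cfsg.Agent.Lib.Helper20.BG.exists_ea_sq M p hpτ.2.2.1 hpτ.2.2.2
    obtain ⟨E'', hE'', hA₀E''⟩ := exists_compl_ge hG M hM hHall A₀ hA₀M (by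
      intro q hq hqd
      rw [hA₀card] at hqd
      have hqp : q = p := (Nat.prime_dvd_prime_iff_eq hq hpp).mp (hq.dvd_of_dvd_pow hqd)
      rw [hqp]
      exact hpτ.2.1)
    obtain ⟨g, hgM, hg⟩ := exists_conj_le_compl hG M hM hHall E'' E' hE'' hE'
    obtain ⟨A, hAdef⟩ : ∃ A : Subgroup G, A = A₀.map (MulAut.conj g).toMonoidHom := ⟨_, rfl⟩
    have hAE' : A ≤ E' := by
      rw [hAdef]
      rintro _ ⟨a, ha, rfl⟩
      exact hg a (hA₀E'' ha)
    have hAea : IsElementaryAbelian p A := hAdef ▸ ea_map_conj hA₀ea g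
    have hAcard : Nat.card A = p ^ 2 := by
      rw [hAdef, Cfsg.Agent.Lib.Helper35.BG.card_map_conj, hA₀card]
    have hAM : A ≤ M := hAE'.trans hE'.1
    obtain ⟨hE'N, hE'X⟩ := h1418 E' hE' p hpτ A ⟨hAE', hAea, hAcard⟩
    obtain ⟨w, hw⟩ : ∃ w : G, w = x ^ (orderOf x / p) := ⟨_, rfl⟩
    have hword : orderOf w = p := hw ▸ orderOf_pow_orderOf_div hn0.ne' hpn
    have hwA : w ∈ A := by
      have h1 : Subgroup.zpowers w ≤ A := by
        apply hE'X (Subgroup.zpowers w) _ (by rw [Nat.card_zpowers, hword])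
        rw [Subgroup.zpowers_le, hw]
        exact E'.pow_mem hxE _
      exact h1 (Subgroup.mem_zpowers w)
    have hw1 : w ≠ 1 := by
      intro h
      rw [h, orderOf_one] at hword
      exact hpp.one_lt.ne hword
    have hAp : IsPGroup p A := Cfsg.Agent.Lib.Helper20.BG.isPGroup_of_ea hAea
    have key : ∀ k : ℕ, ∀ z ∈ Subgroup.zpowers x, orderOf z = k → ∀ a ∈ A, a * z = z * a := by
      intro k
      induction k using Nat.strong_induction_on with
      | _ k ih =>
        intro z hz hzk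
        have hzM : z ∈ M := hxZ hz
        have hzn : z ∈ Subgroup.normalizer (A : Set G) :=
          hE'N (((Subgroup.zpowers_le).mpr hxE) hz)
        have hzN : ∀ a ∈ A, z * a * z⁻¹ ∈ A := by
          intro a ha
          exact (Subgroup.mem_normalizer_iff.mp hzn a).mp ha
        have hk0 : 0 < k := hzk ▸ orderOf_pos z
        by_cases hpz : ∃ r : ℕ, r.Prime ∧ r ∣ k ∧ r ≠ p
        · obtain ⟨r, hr, hrk, hrp⟩ := hpz
          have hpr : p < r := by
            have hrn : r ∣ orderOf x := hrk.trans (hzk ▸ orderOf_dvd_of_mem_zpowers hz)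
            have h2 := Nat.minFac_le_of_dvd hr.two_le hrn
            rw [← hp] at h2
            omega
          have hzr : ∀ a ∈ A, z ^ r * a = a * z ^ r := by
            intro a ha
            have h3 := ih (k / r) (Nat.div_lt_self hk0 hr.one_lt) (z ^ r)
              (Subgroup.pow_mem _ hz r)
              (by rw [orderOf_pow_of_dvd hr.ne_zero (hzk ▸ hrk), hzk]) a ha
            exact h3.symm
          have hzw : w * z = z * w := by
            obtain ⟨i, hi⟩ := Subgroup.mem_zpowers_iff.mp hz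
            rw [← hi, hw, ← zpow_natCast, ← zpow_add, ← zpow_add, add_comm]
          exact centralizes_of_prime_gt hpp hr hpr A hAcard z w hzN hwA hw1 hzw hzr
        · have hall : ∀ {d : ℕ}, d.Prime → d ∣ k → d = p := by
            intro d hd hdk
            by_contra hne
            exact hpz ⟨d, hd, hdk, hne⟩
          have hkp := Nat.eq_prime_pow_of_unique_prime_dvd hk0.ne' hall
          have hZ : IsPGroup p (Subgroup.zpowers z) :=
            IsPGroup.of_card (n := k.primeFactorsList.length) (by rw [Nat.card_zpowers, hzk]; exact hkp)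
          have hZA : Subgroup.zpowers z ≤ Subgroup.normalizer (A : Set G) :=
            (Subgroup.zpowers_le).mpr hzn
          have hS : IsPGroup p (Subgroup.zpowers z ⊔ A : Subgroup G) :=
            IsPGroup.to_sup_of_normal_right' hZ hAp hZA
          have hSM : Subgroup.zpowers z ⊔ A ≤ M := sup_le ((Subgroup.zpowers_le).mpr hzM) hAM
          intro a ha
          exact comm_of_not_sigma hG M hα h1417 p hpτ.2.1 _ hS hSM a (le_sup_right (a := Subgroup.zpowers z) ha) z
            (le_sup_left (b := A) (Subgroup.mem_zpowers z))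
    have hxA : ∀ a ∈ A, a * x = x * a := key _ x (Subgroup.mem_zpowers x) rfl
    have hAC : A ≤ Subgroup.centralizer ({x} : Set G) := by
      intro a ha
      rw [Subgroup.mem_centralizer_singleton_iff]
      exact hxA a ha
    have hyC : y ∈ Subgroup.centralizer ({x} : Set G) := by
      rw [Subgroup.mem_centralizer_singleton_iff]
      exact hxy.symm
    have huniq : ∀ L : Subgroup G, IsCoatom L → Subgroup.centralizer ({x} : Set G) ≤ L → L = M := by
      intro L hL hCL
      by_contra hne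
      have h5 := (h1417 p hpτ A ⟨hAM, hAea, hAcard⟩).2 L hL hne (hAC.trans hCL)
      have h6 : y ∈ sigmaCore M ⊓ L := ⟨hyσ, hCL hyC⟩
      rw [h5, Subgroup.mem_bot] at h6
      exact hy1 h6
    have hCtop : Subgroup.centralizer ({x} : Set G) ≠ ⊤ := by
      intro h
      have hsub : ({x} : Set G) ⊆ Subgroup.center G :=
        Subgroup.centralizer_eq_top_iff_subset.mp h
      have hxc : x ∈ Subgroup.center G := hsub (Set.mem_singleton x)
      have hs : IsSimpleGroup G := hG.2.1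
      rcases (inferInstance : (Subgroup.center G).Normal).eq_bot_or_eq_top with h' | h'
      · rw [h', Subgroup.mem_bot] at hxc
        exact hx1 hxc
      · apply hG.2.2.1
        refine ⟨⟨fun a b => ?_⟩⟩
        have hb : b ∈ Subgroup.center G := h' ▸ Subgroup.mem_top b
        exact Subgroup.mem_center_iff.mp hb a
    refine ⟨?_, huniq⟩
    obtain ⟨L, hL, hCL⟩ := Cfsg.Agent.Lib.Helper35.BG.exists_coatom_ge hCtop
    have hLM := huniq L hL hCL
    rw [← hLM]
    exact hCL

end Cfsg.Agent.Lib.Helper76.BG
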