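import Mathlib
import Cfsg.Prelude
import Cfsg.Statements.S1378
import Cfsg.Statements.S1433
import Cfsg.Agent.Lib.Helper27.BG.SigmaBasic
import Cfsg.Agent.Lib.Helper27.BG.S1433Core
import Cfsg.Agent.Lib.Helper35.BG.Basic

/-!
# Conjugation equivariance of `M_σ`, `M_F`, `R(x)` and disjointness of the sets `M̃_σ`

Generic package for the Bender–Glauberman counting arguments of Section 14:
`sigmaCore_map_conj`, `fittingHallOf_map_conj`, `supportR_map_conj`, and
`tilde_disjoint` (the sets `tildeOf M (M_σ \ {1})` of two non-conjugate maximal subgroups are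
disjoint; from S1378 and S1433).
-/

set_option autoImplicit false

namespace Cfsg.Agent.Lib.Helper76.BG

open Cfsg

section Equiv

variable {M M' : Type*} [Group M] [Group M']

theorem sSup_map_equiv (e : M ≃* M') (S : Set (Subgroup M)) (S' : Set (Subgroup M'))
    (h : ∀ N : Subgroup M, N ∈ S ↔ N.map e.toMonoidHom ∈ S') :
    sSup S' = (sSup S).map e.toMonoidHom := by
  apply le_antisymm
  · apply sSup_le
    intro N' hN'
    have h1 : (N'.comap e.toMonoidHom).map e.toMonoidHom = N' :=
      Subgroup.map_comap_eq_self_of_surjective (f := e.toMonoidHom) e.surjective N'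
    have h2 : N'.comap e.toMonoidHom ∈ S := (h _).mpr (by rw [h1]; exact hN')
    rw [← h1]
    exact Subgroup.map_mono (le_sSup h2)
  · rw [Subgroup.map_le_iff_le_comap]
    apply sSup_le
    intro N hN
    rw [← Subgroup.map_le_iff_le_comap]
    exact le_sSup ((h N).mp hN)

theorem normal_map_equiv_iff (e : M ≃* M') (N : Subgroup M) :
    (N.map e.toMonoidHom).Normal ↔ N.Normal := by
  constructor
  · intro h
    have h1 : (N.map e.toMonoidHom).comap e.toMonoidHom = N :=
      Subgroup.comap_map_eq_self_of_injective (f := e.toMonoidHom) e.injective N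
    rw [← h1]
    exact h.comap _
  · intro h
    exact h.map _ e.surjective

theorem piCore_map_equiv (e : M ≃* M') (π : Set ℕ) :
    piCore π M' = (piCore π M).map e.toMonoidHom := by
  unfold piCore
  apply sSup_map_equiv
  intro N
  simp only [Set.mem_ofPred_eq]
  rw [normal_map_equiv_iff,
    Subgroup.card_map_of_injective (f := e.toMonoidHom) e.injective]

theorem fittingHall_map_equiv (e : M ≃* M') :
    fittingHall M' = (fittingHall M).map e.toMonoidHom := by
  unfold fittingHall
  apply sSup_map_equiv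
  intro N
  simp only [Set.mem_ofPred_eq]
  have hnil : Group.IsNilpotent ↥(N.map e.toMonoidHom) ↔ Group.IsNilpotent ↥N := by
    constructor
    · intro h
      have h' : Group.IsNilpotent ↥(Subgroup.map (e : M →* M') N) := h
      exact Group.nilpotent_of_mulEquiv (e.subgroupMap N).symm
    · intro h
      have h' : Group.IsNilpotent ↥N := h
      exact Group.nilpotent_of_mulEquiv (e.subgroupMap N)
  have hidx : (N.map e.toMonoidHom).index = N.index := Subgroup.index_map_equiv N e
  rw [normal_map_equiv_iff, hnil,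
    Subgroup.card_map_of_injective (f := e.toMonoidHom) e.injective, hidx]

end Equiv

variable {G : Type*} [Group G]

/-- The isomorphism `M ≃* g M g⁻¹`. -/
def conjSubEquiv (M : Subgroup G) (g : G) :
    ↥M ≃* ↥(M.map (MulAut.conj g).toMonoidHom) :=
  (MulAut.conj g).subgroupMap M

theorem map_subtype_map_conj (M : Subgroup G) (g : G) (N : Subgroup M) :
    ((N.map (conjSubEquiv M g).toMonoidHom).map
        (M.map (MulAut.conj g).toMonoidHom).subtype)
      = (N.map M.subtype).map (MulAut.conj g).toMonoidHom := by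
  rw [Subgroup.map_map, Subgroup.map_map]
  rfl

theorem fittingHallOf_map_conj (M : Subgroup G) (g : G) :
    fittingHallOf (M.map (MulAut.conj g).toMonoidHom) =
      (fittingHallOf M).map (MulAut.conj g).toMonoidHom := by
  unfold fittingHallOf
  rw [fittingHall_map_equiv (conjSubEquiv M g), map_subtype_map_conj]

theorem sigmaCore_map_conj [Finite G] (M : Subgroup G) (g : G) :
    sigmaCore (M.map (MulAut.conj g).toMonoidHom) =
      (sigmaCore M).map (MulAut.conj g).toMonoidHom := by
  unfold sigmaCore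
  rw [Cfsg.Agent.Lib.Helper27.BG.sigma_map_conj,
    piCore_map_equiv (conjSubEquiv M g), map_subtype_map_conj]

theorem isCoatom_map_conj {M : Subgroup G} (hM : IsCoatom M) (g : G) :
    IsCoatom (M.map (MulAut.conj g).toMonoidHom) :=
  ((MulAut.conj g).mapSubgroup.isCoatom_iff M).mpr hM

theorem centralizer_singleton_conj (x g : G) :
    Subgroup.centralizer ({g * x * g⁻¹} : Set G) =
      (Subgroup.centralizer ({x} : Set G)).map (MulAut.conj g).toMonoidHom := by
  ext y
  rw [Cfsg.Agent.Lib.Helper35.BG.mem_map_conj_iff, Subgroup.mem_centralizer_singleton_iff,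
    Subgroup.mem_centralizer_singleton_iff]
  constructor
  · intro h
    calc g⁻¹ * y * g * x = g⁻¹ * (y * (g * x * g⁻¹)) * g := by group
      _ = g⁻¹ * ((g * x * g⁻¹) * y) * g := by rw [h]
      _ = x * (g⁻¹ * y * g) := by group
  · intro h
    calc y * (g * x * g⁻¹) = g * ((g⁻¹ * y * g) * x) * g⁻¹ := by group
      _ = g * (x * (g⁻¹ * y * g)) * g⁻¹ := by rw [h]
      _ = g * x * g⁻¹ * y := by group

theorem map_conj_inv_conj (L : Subgroup G) (g : G) :
    (L.map (MulAut.conj g⁻¹).toMonoidHom).map (MulAut.conj g).toMonoidHom = L := by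
  rw [Cfsg.Agent.Lib.Helper35.BG.map_conj_mul, mul_inv_cancel,
    Cfsg.Agent.Lib.Helper35.BG.map_conj_one]

theorem map_conj_conj_inv (L : Subgroup G) (g : G) :
    (L.map (MulAut.conj g).toMonoidHom).map (MulAut.conj g⁻¹).toMonoidHom = L := by
  rw [Cfsg.Agent.Lib.Helper35.BG.map_conj_mul, inv_mul_cancel,
    Cfsg.Agent.Lib.Helper35.BG.map_conj_one]

/-- `R(g x g⁻¹)` computed for `M^g` is the conjugate of `R(x)` computed for `M`. -/
theorem supportR_map_conj (M : Subgroup G) (x g : G) :
    supportR (M.map (MulAut.conj g).toMonoidHom) (g * x * g⁻¹) =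
      (supportR M x).map (MulAut.conj g).toMonoidHom := by
  classical
  have hC := centralizer_singleton_conj x g
  have hle : ∀ L : Subgroup G,
      Subgroup.centralizer ({g * x * g⁻¹} : Set G) ≤ L.map (MulAut.conj g).toMonoidHom ↔
        Subgroup.centralizer ({x} : Set G) ≤ L := by
    intro L
    rw [hC]
    exact Subgroup.map_le_map_iff_of_injective (f := (MulAut.conj g).toMonoidHom)
      (MulAut.conj g).injective
  unfold supportR
  by_cases h : ¬ Subgroup.centralizer ({x} : Set G) ≤ M ∧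
      ∃! L : Subgroup G, IsCoatom L ∧ Subgroup.centralizer ({x} : Set G) ≤ L
  · have h' : ¬ Subgroup.centralizer ({g * x * g⁻¹} : Set G) ≤
          M.map (MulAut.conj g).toMonoidHom ∧
        ∃! L : Subgroup G, IsCoatom L ∧ Subgroup.centralizer ({g * x * g⁻¹} : Set G) ≤ L := by
      refine ⟨fun hc => h.1 ((hle M).mp hc), ?_⟩
      obtain ⟨L, hL, huniq⟩ := h.2
      refine ⟨L.map (MulAut.conj g).toMonoidHom, ⟨isCoatom_map_conj hL.1 g, (hle L).mpr hL.2⟩, ?_⟩
      intro L' hL'
      have h1 : L'.map (MulAut.conj g⁻¹).toMonoidHom = L := by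
        apply huniq
        refine ⟨isCoatom_map_conj hL'.1 g⁻¹, ?_⟩
        rw [← hle, map_conj_inv_conj]
        exact hL'.2
      rw [← h1, map_conj_inv_conj]
    rw [dif_pos h, dif_pos h']
    have hL := Classical.choose_spec h.2.exists
    have hL' := Classical.choose_spec h'.2.exists
    have heq : Classical.choose h'.2.exists =
        (Classical.choose h.2.exists).map (MulAut.conj g).toMonoidHom := by
      apply h'.2.unique hL'
      exact ⟨isCoatom_map_conj hL.1 g, (hle _).mpr hL.2⟩
    rw [heq, fittingHallOf_map_conj, hC]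
    exact (Subgroup.map_inf _ _ _ (MulAut.conj g).injective).symm
  · have h' : ¬ (¬ Subgroup.centralizer ({g * x * g⁻¹} : Set G) ≤
          M.map (MulAut.conj g).toMonoidHom ∧
        ∃! L : Subgroup G, IsCoatom L ∧ Subgroup.centralizer ({g * x * g⁻¹} : Set G) ≤ L) := by
      intro h''
      apply h
      refine ⟨fun hc => h''.1 ((hle M).mpr hc), ?_⟩
      obtain ⟨L', hL', huniq⟩ := h''.2
      refine ⟨L'.map (MulAut.conj g⁻¹).toMonoidHom, ⟨isCoatom_map_conj hL'.1 g⁻¹, ?_⟩, ?_⟩
      · rw [← hle, map_conj_inv_conj]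
        exact hL'.2
      · intro L hL
        have h1 : L.map (MulAut.conj g).toMonoidHom = L' :=
          huniq _ ⟨isCoatom_map_conj hL.1 g, (hle L).mpr hL.2⟩
        rw [← h1, map_conj_conj_inv]
    rw [dif_neg h, dif_neg h']
    simp

/-- `supportR M x` centralizes `x`. -/
theorem supportR_le_centralizer (M : Subgroup G) (x : G) :
    supportR M x ≤ Subgroup.centralizer ({x} : Set G) := by
  classical
  unfold supportR
  split_ifs with h
  · exact inf_le_right
  · exact bot_le

/-- If `C_G(x) ≤ M` then `R(x) = 1`. -/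
theorem supportR_eq_bot_of_le {M : Subgroup G} {x : G}
    (h : Subgroup.centralizer ({x} : Set G) ≤ M) : supportR M x = ⊥ := by
  classical
  unfold supportR
  rw [dif_neg]
  exact fun h' => h'.1 h

/-- The sets `M̃_σ` of two non-conjugate maximal subgroups are disjoint (from S1378, S1433). -/
theorem tilde_disjoint [Finite G] (hG : IsMinSimpleOddOrder G)
    (h1378 : type_of% (@Cfsg.CfsgFrozen.S1378 G _ _ hG))
    (h1433 : type_of% (@Cfsg.CfsgFrozen.S1433 G _ _ hG))
    (M N : Subgroup G) (hM : IsCoatom M) (hN : IsCoatom N)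
    (hne : ∀ g : G, N ≠ M.map (MulAut.conj g).toMonoidHom) :
    tildeOf M ((sigmaCore M : Set G) \ {1}) ∩ tildeOf N ((sigmaCore N : Set G) \ {1}) = ∅ := by
  rw [Set.eq_empty_iff_forall_notMem]
  rintro t ⟨⟨a, ⟨haM, ha1⟩, r, hr, u, rfl⟩, ⟨b, ⟨hbN, hb1⟩, s, hs, v, hv⟩⟩
  have ha1' : a ≠ 1 := fun h => ha1 (by simp [h])
  have hb1' : b ≠ 1 := fun h => hb1 (by simp [h])
  have hM' : IsCoatom (M.map (MulAut.conj u).toMonoidHom) := isCoatom_map_conj hM u
  have hN' : IsCoatom (N.map (MulAut.conj v).toMonoidHom) := isCoatom_map_conj hN v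
  have ha' : u * a * u⁻¹ ∈ sigmaCore (M.map (MulAut.conj u).toMonoidHom) := by
    rw [sigmaCore_map_conj]
    exact Cfsg.Agent.Lib.Helper35.BG.conj_mem_map_conj u haM
  have hb' : v * b * v⁻¹ ∈ sigmaCore (N.map (MulAut.conj v).toMonoidHom) := by
    rw [sigmaCore_map_conj]
    exact Cfsg.Agent.Lib.Helper35.BG.conj_mem_map_conj v hbN
  have hr' : u * r * u⁻¹ ∈ supportR (M.map (MulAut.conj u).toMonoidHom) (u * a * u⁻¹) := by
    rw [supportR_map_conj]
    exact Cfsg.Agent.Lib.Helper35.BG.conj_mem_map_conj u hr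
  have hs' : v * s * v⁻¹ ∈ supportR (N.map (MulAut.conj v).toMonoidHom) (v * b * v⁻¹) := by
    rw [supportR_map_conj]
    exact Cfsg.Agent.Lib.Helper35.BG.conj_mem_map_conj v hs
  have hprod : (u * a * u⁻¹) * (u * r * u⁻¹) = (v * b * v⁻¹) * (v * s * v⁻¹) := by
    calc (u * a * u⁻¹) * (u * r * u⁻¹) = u * (a * r) * u⁻¹ := by group
      _ = v * (b * s) * v⁻¹ := hv
      _ = (v * b * v⁻¹) * (v * s * v⁻¹) := by group
  have hua1 : u * a * u⁻¹ ≠ 1 := by
    intro h
    apply ha1'
    have : a = u⁻¹ * (u * a * u⁻¹) * u := by group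
    rw [this, h]; group
  have hvb1 : v * b * v⁻¹ ≠ 1 := by
    intro h
    apply hb1'
    have : b = v⁻¹ * (v * b * v⁻¹) * v := by group
    rw [this, h]; group
  by_cases hab : u * a * u⁻¹ = v * b * v⁻¹
  · have h1 : orderOf (u * a * u⁻¹) ≠ 1 := fun h => hua1 (orderOf_eq_one_iff.mp h)
    obtain ⟨p, hp, hdvd⟩ := Nat.exists_prime_and_dvd h1
    have hpM : p ∈ sigma (M.map (MulAut.conj u).toMonoidHom) :=
      Cfsg.Agent.Lib.Helper27.BG.prime_mem_sigma_of_mem_sigmaCore ha' hp hdvd
    have hpN : p ∈ sigma (N.map (MulAut.conj v).toMonoidHom) :=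
      Cfsg.Agent.Lib.Helper27.BG.prime_mem_sigma_of_mem_sigmaCore hb' hp (hab ▸ hdvd)
    obtain ⟨h, hh⟩ := h1378.2 _ _ hM' hN' ⟨p, hpM, hpN⟩
    apply hne (v⁻¹ * h * u)
    have h2 : N = (N.map (MulAut.conj v).toMonoidHom).map (MulAut.conj v⁻¹).toMonoidHom :=
      (map_conj_conj_inv N v).symm
    rw [h2, hh, Cfsg.Agent.Lib.Helper35.BG.map_conj_mul, Cfsg.Agent.Lib.Helper35.BG.map_conj_mul,
      mul_assoc]
  · exact h1433 _ _ hM' hN' _ _ ha' hb' hua1 hvb1 hab _ hr' _ hs' hprod

end Cfsg.Agent.Lib.Helper76.BG
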