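import Mathlib
import Cfsg.Prelude
import Cfsg.Statements.S1412
import Cfsg.Agent.S1453
import Cfsg.Agent.Lib.Helper23.PGroupEA
import Cfsg.Agent.Lib.Helper24.PRank
import Cfsg.Agent.Lib.Helper35.BG.Basic
import Cfsg.Agent.Lib.Helper48.Generation
import Cfsg.Agent.Lib.Helper67.BG.Basics
import Cfsg.Agent.Lib.Helper75.BGUtil
import Cfsg.Agent.Lib.Helper76.BG.S1420Core

/-!
# Bender–Glauberman 11.5 and 11.6 (exceptional maximal subgroups): Sylow `p`-subgroups are abelian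

Setting (Hypothesis 11.1): `M` maximal, `p ∉ σ(M)`, `A ≤ M` elementary abelian of order `p ^ 2`,
`A₀ ≤ A` of order `p` with `N_G(A₀) ≤ M`.  Taking 11.1(b), 11.2(b), 11.3 as explicit hypotheses,
`sec11_abelian` proves 11.5 and 11.6.
-/

set_option autoImplicit false

namespace Cfsg.Agent.Lib.Helper76.BG

open Cfsg
open Pointwise

/-- In a group of `p`-rank at most two, an element of order dividing `p` centralizing an elementary
abelian subgroup of order `p ^ 2` lies in it. -/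
theorem mem_of_ea_rank_two {G : Type*} [Group G] [Finite G] {p : ℕ} {M A : Subgroup G}
    (hr2 : PRankLE p 2 M) (hAM : A ≤ M) (hA : IsElementaryAbelian p A) (hA2 : Nat.card A = p ^ 2)
    {z : G} (hzM : z ∈ M) (hz : z ^ p = 1) (hcomm : ∀ a ∈ A, a * z = z * a) : z ∈ A := by
  have hB : IsElementaryAbelian p (A ⊔ Subgroup.zpowers z) := by
    refine Cfsg.Agent.Lib.Helper23.isEA_sup hA (Cfsg.Agent.Lib.Helper23.isEA_zpowers hz) ?_
    intro a ha b hb
    obtain ⟨k, rfl⟩ := Subgroup.mem_zpowers_iff.mp hb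
    exact ((show Commute a z from hcomm a ha).zpow_right k).eq
  have hBM : A ⊔ Subgroup.zpowers z ≤ M := sup_le hAM ((Subgroup.zpowers_le).mpr hzM)
  have hcard := (Cfsg.Agent.Lib.Helper24.pRankLE_subgroup_iff p 2 M).mp hr2 _ hBM
    (fun a ha b hb => Cfsg.Agent.Lib.Helper23.isEA_comm hB ha hb) hB.2
  have heq : A = A ⊔ Subgroup.zpowers z :=
    Subgroup.eq_of_le_of_card_ge le_sup_left (by rw [hA2]; exact hcard)
  rw [heq]
  exact le_sup_right (a := A) (Subgroup.mem_zpowers z)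

/-- A `p`-element `x` normalizing `⟨y, z⟩` (with `z` central, `y` of order `p`, `y ∉ ⟨z⟩`)
moves `y` only by an element of `⟨z⟩`. -/
theorem conj_eq_mul_zpow {D : Type*} [Group D] {p : ℕ} [hp : Fact p.Prime] (x y z : D) (k : ℕ)
    (hx : x ^ (p ^ k) = 1) (hy : orderOf y = p) (hzx : x * z = z * x) (hzy : y * z = z * y)
    (hyz : y ∉ Subgroup.zpowers z) (a b : ℤ) (h : x * y * x⁻¹ = y ^ a * z ^ b) :
    x * y * x⁻¹ = y * z ^ b := by
  have hφz : MulAut.conj x z = z := by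
    show x * z * x⁻¹ = z
    rw [hzx]; group
  have hφy : MulAut.conj x y = y ^ a * z ^ b := h
  have hcyz : Commute y z := hzy
  have key : ∀ n : ℕ, ∃ c : ℤ, (MulAut.conj x ^ n) y = y ^ (a ^ n) * z ^ c := by
    intro n
    induction n with
    | zero => exact ⟨0, by simp⟩
    | succ n ih =>
      obtain ⟨c, hc⟩ := ih
      refine ⟨b * a ^ n + c, ?_⟩
      have h1 : (MulAut.conj x ^ (n + 1)) y = MulAut.conj x ((MulAut.conj x ^ n) y) := by
        rw [pow_succ']; rfl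
      rw [h1, hc, map_mul, map_zpow, map_zpow, hφy, hφz]
      have hc2 : Commute (y ^ a) (z ^ b) := (hcyz.zpow_left a).zpow_right b
      rw [hc2.mul_zpow, ← zpow_mul, ← zpow_mul, mul_assoc, ← zpow_add, pow_succ]
      congr 1
      · congr 1; ring
  obtain ⟨c, hc⟩ := key (p ^ k)
  have h1 : (MulAut.conj x ^ (p ^ k)) y = y := by
    rw [← map_pow, hx, map_one]; rfl
  rw [h1] at hc
  -- y ^ (a ^ (p ^ k) - 1) ∈ zpowers z
  have h2 : y ^ (a ^ (p ^ k) - 1) ∈ Subgroup.zpowers z := by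
    have h3 : y ^ (a ^ (p ^ k) - 1) = z ^ (-c) := by
      rw [zpow_sub, zpow_one, zpow_neg]
      have h4 : y ^ (a ^ (p ^ k)) = y * (z ^ c)⁻¹ := by
        rw [eq_mul_inv_iff_mul_eq]; exact hc.symm
      rw [h4]
      have hc3 : Commute y ((z ^ c)⁻¹) := (hcyz.zpow_right c).inv_right
      rw [hc3.eq]; group
    rw [h3]
    exact Subgroup.zpow_mem _ (Subgroup.mem_zpowers z) _
  have hpZ : Prime (p : ℤ) := Nat.prime_iff_prime_int.mp hp.out
  have h5 : (p : ℤ) ∣ a ^ (p ^ k) - 1 := by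
    by_contra hnd
    have hcop : IsCoprime (p : ℤ) (a ^ (p ^ k) - 1) := (Prime.coprime_iff_not_dvd hpZ).mpr hnd
    obtain ⟨u, v, huv⟩ := hcop
    apply hyz
    have h6 : y = (y ^ (a ^ (p ^ k) - 1)) ^ v := by
      have h7 : y ^ (p : ℤ) = 1 := by
        rw [zpow_natCast, ← hy]; exact pow_orderOf_eq_one y
      calc y = y ^ (u * (p : ℤ) + v * (a ^ (p ^ k) - 1)) := by rw [huv, zpow_one]
        _ = (y ^ (p : ℤ)) ^ u * (y ^ (a ^ (p ^ k) - 1)) ^ v := by
            rw [zpow_add, mul_comm u, zpow_mul, mul_comm v, zpow_mul]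
        _ = (y ^ (a ^ (p ^ k) - 1)) ^ v := by rw [h7, one_zpow, one_mul]
    rw [h6]
    exact Subgroup.zpow_mem _ h2 _
  have h8 : ((a : ZMod p)) = 1 := by
    have h9 : ((a ^ (p ^ k) - 1 : ℤ) : ZMod p) = 0 :=
      (ZMod.intCast_zmod_eq_zero_iff_dvd _ p).mpr h5
    push_cast at h9
    rw [ZMod.pow_card_pow] at h9
    exact sub_eq_zero.mp h9
  have h10 : (p : ℤ) ∣ a - 1 := by
    apply (ZMod.intCast_zmod_eq_zero_iff_dvd _ p).mp
    push_cast
    rw [h8, sub_self]
  have h11 : y ^ a = y ^ (1 : ℤ) := by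
    rw [zpow_eq_zpow_iff_modEq, hy]
    exact (Int.modEq_iff_dvd.mpr (by
      have : (1 : ℤ) - a = -(a - 1) := by ring
      rw [this]; exact (dvd_neg).mpr h10))
  rw [h, h11, zpow_one]

/-- **Case 1 of BG 11.5.**  Let the `p`-group `P` (of `p`-rank at most two) normalize the
`p'`-group `R`.  If `y ∈ P` has order `p`, is not central in `P` and is fixed-point-free on `R`,
then every central element `z₀` of order `p` of `P` centralizes `R`. -/
theorem central_centralizes_of_fpf {G : Type*} [Group G] [Finite G] {p : ℕ} [hp : Fact p.Prime]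
    (P R : Subgroup G) (hP : IsPGroup p P) (hR : ¬ p ∣ Nat.card R)
    (hPR : P ≤ Subgroup.normalizer (R : Set G))
    (hrk : ∀ B : Subgroup G, B ≤ P → IsElementaryAbelian p B → Nat.card B ≤ p ^ 2)
    (y : G) (hyP : y ∈ P) (hy : orderOf y = p) (x₀ : G) (hx₀ : x₀ ∈ P) (hx₀y : x₀ * y ≠ y * x₀)
    (hfpf : R ⊓ Subgroup.centralizer ({y} : Set G) = ⊥)
    (z₀ : G) (hz₀P : z₀ ∈ P) (hz₀ : orderOf z₀ = p) (hz₀c : ∀ x ∈ P, x * z₀ = z₀ * x) :
    ∀ r ∈ R, r * z₀ = z₀ * r := by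
  have hpp : p.Prime := hp.out
  have hyp : y ^ p = 1 := by rw [← hy]; exact pow_orderOf_eq_one y
  have hz₀p : z₀ ^ p = 1 := by rw [← hz₀]; exact pow_orderOf_eq_one z₀
  have hy1 : y ≠ 1 := by
    intro h; rw [h, orderOf_one] at hy; exact hpp.one_lt.ne hy
  -- the centralizer of y in P is proper
  have hCne : P ⊓ Subgroup.centralizer ({y} : Set G) ≠ P := by
    intro h
    have h1 : x₀ ∈ P ⊓ Subgroup.centralizer ({y} : Set G) := by rw [h]; exact hx₀
    exact hx₀y (Subgroup.mem_centralizer_singleton_iff.mp h1.2)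
  obtain ⟨x, hxP, hxN, hxC⟩ :=
    Cfsg.Agent.Lib.Helper35.BG.exists_mem_normalizer_not_mem hP inf_le_left hCne
  have hyC : y ∈ P ⊓ Subgroup.centralizer ({y} : Set G) :=
    ⟨hyP, Subgroup.mem_centralizer_singleton_iff.mpr rfl⟩
  have hy'C : x * y * x⁻¹ ∈ P ⊓ Subgroup.centralizer ({y} : Set G) :=
    (Subgroup.mem_normalizer_iff.mp hxN y).mp hyC
  have hy'y : x * y * x⁻¹ * y = y * (x * y * x⁻¹) :=
    Subgroup.mem_centralizer_singleton_iff.mp hy'C.2
  have hzy : y * z₀ = z₀ * y := hz₀c y hyP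
  have hyz : y ∉ Subgroup.zpowers z₀ := by
    intro h
    obtain ⟨k, hk⟩ := Subgroup.mem_zpowers_iff.mp h
    apply hx₀y
    rw [← hk]
    exact ((show Commute x₀ z₀ from hz₀c x₀ hx₀).zpow_right k).eq
  -- the elementary abelian group ⟨y, z₀⟩
  have hB₂ : IsElementaryAbelian p (Subgroup.zpowers y ⊔ Subgroup.zpowers z₀) := by
    refine Cfsg.Agent.Lib.Helper23.isEA_sup (Cfsg.Agent.Lib.Helper23.isEA_zpowers hyp)
      (Cfsg.Agent.Lib.Helper23.isEA_zpowers hz₀p) ?_
    intro a ha b hb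
    obtain ⟨i, rfl⟩ := Subgroup.mem_zpowers_iff.mp ha
    obtain ⟨j, rfl⟩ := Subgroup.mem_zpowers_iff.mp hb
    exact (((show Commute y z₀ from hzy).zpow_left i).zpow_right j).eq
  have hB₂P : Subgroup.zpowers y ⊔ Subgroup.zpowers z₀ ≤ P :=
    sup_le ((Subgroup.zpowers_le).mpr hyP) ((Subgroup.zpowers_le).mpr hz₀P)
  have hB₂card : Nat.card ↥(Subgroup.zpowers y ⊔ Subgroup.zpowers z₀) = p ^ 2 := by
    apply le_antisymm (hrk _ hB₂P hB₂)
    obtain ⟨n, hn⟩ := IsPGroup.iff_card.mp (Cfsg.Agent.Lib.Helper23.isEA_isPGroup hB₂)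
    have hlt : Subgroup.zpowers z₀ < Subgroup.zpowers y ⊔ Subgroup.zpowers z₀ := by
      refine lt_of_le_of_ne le_sup_right ?_
      intro h
      apply hyz
      rw [h]
      exact le_sup_left (b := Subgroup.zpowers z₀) (Subgroup.mem_zpowers y)
    have h2 := Cfsg.Agent.Lib.Helper35.BG.card_lt_of_lt hlt
    rw [Nat.card_zpowers, hz₀, hn] at h2
    rw [hn]
    have h3 : 1 < n := by
      by_contra h4
      have h5 : n ≤ 1 := by omega
      have h6 := Nat.pow_le_pow_right hpp.pos h5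
      rw [pow_one] at h6
      omega
    exact Nat.pow_le_pow_right hpp.pos h3
  -- x y x⁻¹ lies in ⟨y, z₀⟩
  have hy'p : (x * y * x⁻¹) ^ p = 1 := by rw [conj_pow, hyp]; group
  have hy'B : x * y * x⁻¹ ∈ Subgroup.zpowers y ⊔ Subgroup.zpowers z₀ := by
    have hB₃ : IsElementaryAbelian p
        ((Subgroup.zpowers y ⊔ Subgroup.zpowers z₀) ⊔ Subgroup.zpowers (x * y * x⁻¹)) := by
      refine Cfsg.Agent.Lib.Helper23.isEA_sup hB₂ (Cfsg.Agent.Lib.Helper23.isEA_zpowers hy'p) ?_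
      intro a ha b hb
      obtain ⟨u, hu, v, hv, rfl⟩ := Cfsg.Agent.Lib.Helper23.mem_sup_of_commute _ _ (by
        intro a ha b hb
        obtain ⟨i, rfl⟩ := Subgroup.mem_zpowers_iff.mp ha
        obtain ⟨j, rfl⟩ := Subgroup.mem_zpowers_iff.mp hb
        exact (((show Commute y z₀ from hzy).zpow_left i).zpow_right j).eq) ha
      obtain ⟨i, rfl⟩ := Subgroup.mem_zpowers_iff.mp hu
      obtain ⟨j, rfl⟩ := Subgroup.mem_zpowers_iff.mp hv
      obtain ⟨l, rfl⟩ := Subgroup.mem_zpowers_iff.mp hb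
      have c1 : Commute y (x * y * x⁻¹) := hy'y.symm
      have c2 : Commute z₀ (x * y * x⁻¹) := (hz₀c _ hy'C.1).symm
      exact (((c1.zpow_left i).mul_left (c2.zpow_left j)).zpow_right l).eq
    have hB₃P : (Subgroup.zpowers y ⊔ Subgroup.zpowers z₀) ⊔ Subgroup.zpowers (x * y * x⁻¹) ≤ P :=
      sup_le hB₂P ((Subgroup.zpowers_le).mpr hy'C.1)
    have heq : Subgroup.zpowers y ⊔ Subgroup.zpowers z₀ =
        (Subgroup.zpowers y ⊔ Subgroup.zpowers z₀) ⊔ Subgroup.zpowers (x * y * x⁻¹) :=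
      Subgroup.eq_of_le_of_card_ge le_sup_left (by rw [hB₂card]; exact hrk _ hB₃P hB₃)
    rw [heq]
    exact le_sup_right (a := Subgroup.zpowers y ⊔ Subgroup.zpowers z₀) (Subgroup.mem_zpowers _)
  obtain ⟨u, hu, v, hv, huv⟩ := Cfsg.Agent.Lib.Helper23.mem_sup_of_commute _ _ (by
    intro a ha b hb
    obtain ⟨i, rfl⟩ := Subgroup.mem_zpowers_iff.mp ha
    obtain ⟨j, rfl⟩ := Subgroup.mem_zpowers_iff.mp hb
    exact (((show Commute y z₀ from hzy).zpow_left i).zpow_right j).eq) hy'B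
  obtain ⟨a, rfl⟩ := Subgroup.mem_zpowers_iff.mp hu
  obtain ⟨b, rfl⟩ := Subgroup.mem_zpowers_iff.mp hv
  obtain ⟨k, hk⟩ := hP ⟨x, hxP⟩
  have hxk : x ^ (p ^ k) = 1 := congrArg Subtype.val hk
  have hconj : x * y * x⁻¹ = y * z₀ ^ b :=
    conj_eq_mul_zpow x y z₀ k hxk hy (hz₀c x hxP) hzy hyz a b huv
  -- z := z₀ ^ b is a nontrivial central element
  have hz1 : z₀ ^ b ≠ 1 := by
    intro h
    rw [h, mul_one] at hconj
    apply hxC
    refine ⟨hxP, Subgroup.mem_centralizer_singleton_iff.mpr ?_⟩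
    calc x * y = x * y * x⁻¹ * x := by group
      _ = y * x := by rw [hconj]
  have hzc : ∀ w ∈ P, w * z₀ ^ b = z₀ ^ b * w := fun w hw =>
    ((show Commute w z₀ from hz₀c w hw).zpow_right b).eq
  have hzP : z₀ ^ b ∈ P := P.zpow_mem hz₀P b
  have hzp : (z₀ ^ b) ^ p = 1 := by
    rw [← zpow_natCast, ← zpow_mul, mul_comm, zpow_mul, zpow_natCast, hz₀p, one_zpow]
  have hpow : ∀ j : ℕ, x ^ j * y * (x ^ j)⁻¹ = y * (z₀ ^ b) ^ j := by
    intro j
    induction j with
    | zero => simp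
    | succ j ih =>
      have h1 : x ^ (j + 1) * y * (x ^ (j + 1))⁻¹ = x * (x ^ j * y * (x ^ j)⁻¹) * x⁻¹ := by
        rw [pow_succ']; group
      rw [h1, ih]
      have h2 : x * (y * (z₀ ^ b) ^ j) * x⁻¹ = (x * y * x⁻¹) * (x * (z₀ ^ b) ^ j * x⁻¹) := by group
      have h3 : x * (z₀ ^ b) ^ j * x⁻¹ = (z₀ ^ b) ^ j := by
        have c : Commute x ((z₀ ^ b) ^ j) := (show Commute x (z₀ ^ b) from hzc x hxP).pow_right j
        rw [c.eq]; group
      rw [h2, h3, hconj, mul_assoc, ← pow_succ']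
  -- coprime generation
  have hgen := Cfsg.Agent.Lib.Helper48.coprime_generation R P hP hR hPR y (z₀ ^ b) hyP hzP
    ((show Commute y z₀ from hzy).zpow_right b).eq hyp hzp
  have hbot : ∀ i : ℕ, R ⊓ Subgroup.centralizer ({y * (z₀ ^ b) ^ i} : Set G) = ⊥ := by
    intro i
    rw [eq_bot_iff]
    rintro r ⟨hrR, hrc⟩
    rw [← hpow i] at hrc
    have hxi : x ^ i ∈ P := P.pow_mem hxP i
    have hr' : (x ^ i)⁻¹ * r * x ^ i ∈ R := by
      have h1 := (Subgroup.mem_normalizer_iff.mp (hPR (P.inv_mem hxi)) r).mp hrR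
      simpa using h1
    have hr'c : (x ^ i)⁻¹ * r * x ^ i ∈ Subgroup.centralizer ({y} : Set G) := by
      rw [Subgroup.mem_centralizer_singleton_iff]
      have h2 : r * (x ^ i * y * (x ^ i)⁻¹) = x ^ i * y * (x ^ i)⁻¹ * r :=
        Subgroup.mem_centralizer_singleton_iff.mp hrc
      calc (x ^ i)⁻¹ * r * x ^ i * y = (x ^ i)⁻¹ * (r * (x ^ i * y * (x ^ i)⁻¹)) * x ^ i := by group
        _ = (x ^ i)⁻¹ * (x ^ i * y * (x ^ i)⁻¹ * r) * x ^ i := by rw [h2]
        _ = y * ((x ^ i)⁻¹ * r * x ^ i) := by group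
    have h3 : (x ^ i)⁻¹ * r * x ^ i ∈ R ⊓ Subgroup.centralizer ({y} : Set G) := ⟨hr', hr'c⟩
    rw [hfpf, Subgroup.mem_bot] at h3
    rw [Subgroup.mem_bot]
    calc r = x ^ i * ((x ^ i)⁻¹ * r * x ^ i) * (x ^ i)⁻¹ := by group
      _ = 1 := by rw [h3]; group
  have hRz : R ≤ R ⊓ Subgroup.centralizer ({z₀ ^ b} : Set G) := by
    refine hgen.trans (sup_le le_rfl (iSup_le fun i => ?_))
    rw [hbot i]
    exact bot_le
  -- z₀ is a power of z₀ ^ b
  have hpb : ¬ (p : ℤ) ∣ b := by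
    intro hdvd
    apply hz1
    obtain ⟨c, rfl⟩ := hdvd
    rw [zpow_mul, zpow_natCast, hz₀p, one_zpow]
  have hpZ : Prime (p : ℤ) := Nat.prime_iff_prime_int.mp hpp
  obtain ⟨u, v, huv⟩ := (Prime.coprime_iff_not_dvd hpZ).mpr hpb
  have hz₀eq : z₀ = (z₀ ^ b) ^ v := by
    calc z₀ = z₀ ^ (u * (p : ℤ) + v * b) := by rw [huv, zpow_one]
      _ = (z₀ ^ (p : ℤ)) ^ u * (z₀ ^ b) ^ v := by
          rw [zpow_add, mul_comm u, zpow_mul, mul_comm v, zpow_mul]
      _ = (z₀ ^ b) ^ v := by rw [zpow_natCast, hz₀p, one_zpow, one_mul]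
  intro r hr
  have h1 : r * z₀ ^ b = z₀ ^ b * r := Subgroup.mem_centralizer_singleton_iff.mp (hRz hr).2
  rw [hz₀eq]
  exact ((show Commute r (z₀ ^ b) from h1).zpow_right v).eq

/-- Elements of a cyclic subgroup commute. -/
theorem comm_of_isCyclic_subgroup {G : Type*} [Group G] (Q : Subgroup G) (hc : IsCyclic Q) :
    ∀ a ∈ Q, ∀ b ∈ Q, a * b = b * a := by
  intro a ha b hb
  obtain ⟨g, hg⟩ := hc.exists_generator
  obtain ⟨m, hm⟩ := Subgroup.mem_zpowers_iff.mp (hg ⟨a, ha⟩)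
  obtain ⟨n, hn⟩ := Subgroup.mem_zpowers_iff.mp (hg ⟨b, hb⟩)
  have h7 : (⟨a, ha⟩ : Q) * ⟨b, hb⟩ = ⟨b, hb⟩ * ⟨a, ha⟩ := by
    rw [← hm, ← hn, ← zpow_add, ← zpow_add, add_comm]
  exact congrArg Subtype.val h7

/-- An elementary abelian group of order `p ^ 2` is not contained in a cyclic subgroup. -/
theorem not_le_cyclic_of_ea_sq {G : Type*} [Group G] {p : ℕ} [hp : Fact p.Prime]
    {A Q : Subgroup G} (hA : IsElementaryAbelian p A) (hA2 : Nat.card A = p ^ 2)
    (hc : IsCyclic Q) : ¬ A ≤ Q := by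
  intro hAQ
  have hpp : p.Prime := hp.out
  have : Finite A := Nat.finite_of_card_ne_zero (by rw [hA2]; exact pow_ne_zero _ hpp.ne_zero)
  have hcA : IsCyclic (A.subgroupOf Q) := Subgroup.isCyclic _
  obtain ⟨g, hg⟩ := hcA.exists_generator
  have hcard : Nat.card (A.subgroupOf Q) = p ^ 2 := by
    rw [Nat.card_congr (Subgroup.subgroupOfEquivOfLe hAQ).toEquiv, hA2]
  have : Finite (A.subgroupOf Q) :=
    Nat.finite_of_card_ne_zero (by rw [hcard]; exact pow_ne_zero _ hpp.ne_zero)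
  have hord : orderOf g = p ^ 2 := by
    rw [← hcard]
    exact orderOf_eq_card_of_forall_mem_zpowers hg
  have hgp : g ^ p = 1 := by
    apply Subtype.ext
    apply Subtype.ext
    have h1 := hA.2 ((g : Q) : G) (Subgroup.mem_subgroupOf.mp g.2)
    simpa using h1
  have hdvd : orderOf g ∣ p := orderOf_dvd_of_pow_eq_one hgp
  rw [hord] at hdvd
  have hle := Nat.le_of_dvd hpp.pos hdvd
  have : p < p ^ 2 := by nlinarith [hpp.two_le]
  omega

/-- **BG 11.5, rank two Sylow structure.**  If `S = P₁ P₂` is a central product with `P₁` of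
order `p ^ 3` and exponent `p`, `P₂` cyclic and `Ω₁(P₂) = Z(P₁)`, then the centralizer in `S`
of an elementary abelian subgroup of order `p ^ 2` is abelian. -/
theorem centralizer_ea_comm_of_central_product {G : Type*} [Group G] [Finite G] {p : ℕ}
    [hp : Fact p.Prime] (S P₁ P₂ A : Subgroup G) (hS : P₁ ⊔ P₂ = S)
    (hcomm : ∀ a ∈ P₁, ∀ b ∈ P₂, a * b = b * a) (hcard : Nat.card P₁ = p ^ 3)
    (hexp : ∀ a ∈ P₁, a ^ p = 1) (hcyc : IsCyclic P₂)
    (hZ : Subgroup.closure {x : G | x ∈ P₂ ∧ x ^ p = 1} = P₁ ⊓ Subgroup.centralizer (P₁ : Set G))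
    (hAS : A ≤ S) (hA : IsElementaryAbelian p A) (hA2 : Nat.card A = p ^ 2) :
    ∀ u ∈ S ⊓ Subgroup.centralizer (A : Set G), ∀ v ∈ S ⊓ Subgroup.centralizer (A : Set G),
      u * v = v * u := by
  have hpp : p.Prime := hp.out
  -- A ≤ P₁
  have hAP₁ : A ≤ P₁ := by
    intro a ha
    have haS : a ∈ P₁ ⊔ P₂ := by rw [hS]; exact hAS ha
    obtain ⟨s₁, hs₁, s₂, hs₂, rfl⟩ := Cfsg.Agent.Lib.Helper23.mem_sup_of_commute P₁ P₂ hcomm haS
    have h1 := hA.2 _ ha
    rw [(show Commute s₁ s₂ from hcomm s₁ hs₁ s₂ hs₂).mul_pow, hexp s₁ hs₁, one_mul] at h1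
    have h2 : s₂ ∈ Subgroup.closure {x : G | x ∈ P₂ ∧ x ^ p = 1} :=
      Subgroup.subset_closure ⟨hs₂, h1⟩
    rw [hZ] at h2
    exact P₁.mul_mem hs₁ h2.1
  -- A is not central in P₁
  have hnc : ∃ a ∈ A, ∃ w ∈ P₁, w * a ≠ a * w := by
    by_contra hall
    push Not at hall
    apply not_le_cyclic_of_ea_sq hA hA2 hcyc
    intro a ha
    have h0 : a ∈ Subgroup.centralizer (P₁ : Set G) := by
      rw [Subgroup.mem_centralizer_iff]
      intro w hw
      exact hall a ha w hw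
    have h1 : a ∈ P₁ ⊓ Subgroup.centralizer (P₁ : Set G) := Subgroup.mem_inf.mpr ⟨hAP₁ ha, h0⟩
    rw [← hZ] at h1
    have hle : Subgroup.closure {x : G | x ∈ P₂ ∧ x ^ p = 1} ≤ P₂ :=
      (Subgroup.closure_le P₂).mpr (fun x hx => hx.1)
    exact hle h1
  obtain ⟨a, haA, w, hwP₁, hwa⟩ := hnc
  -- C_{P₁}(a) = A
  have hCA : P₁ ⊓ Subgroup.centralizer ({a} : Set G) = A := by
    symm
    have hle : A ≤ P₁ ⊓ Subgroup.centralizer ({a} : Set G) := by
      intro b hb
      refine ⟨hAP₁ hb, Subgroup.mem_centralizer_singleton_iff.mpr ?_⟩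
      exact Cfsg.Agent.Lib.Helper23.isEA_comm hA hb haA
    apply Subgroup.eq_of_le_of_card_ge hle
    have hdvd : Nat.card ↥(P₁ ⊓ Subgroup.centralizer ({a} : Set G)) ∣ p ^ 3 := by
      rw [← hcard]; exact Subgroup.card_dvd_of_le inf_le_left
    obtain ⟨m, hm3, hm⟩ := (Nat.dvd_prime_pow hpp).mp hdvd
    have hm3' : m ≠ 3 := by
      intro h3
      rw [h3, ← hcard] at hm
      have heq : P₁ ⊓ Subgroup.centralizer ({a} : Set G) = P₁ :=
        Subgroup.eq_of_le_of_card_ge inf_le_left hm.ge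
      have hw' : w ∈ P₁ ⊓ Subgroup.centralizer ({a} : Set G) := by rw [heq]; exact hwP₁
      exact hwa (Subgroup.mem_centralizer_singleton_iff.mp hw'.2)
    rw [hm, hA2]
    exact Nat.pow_le_pow_right hpp.pos (by omega)
  -- decomposition of elements of C_S(A)
  have hdec : ∀ u ∈ S ⊓ Subgroup.centralizer (A : Set G), ∃ a₁ ∈ A, ∃ b₁ ∈ P₂, u = a₁ * b₁ := by
    rintro u ⟨huS, huc⟩
    rw [← hS] at huS
    obtain ⟨s₁, hs₁, s₂, hs₂, rfl⟩ := Cfsg.Agent.Lib.Helper23.mem_sup_of_commute P₁ P₂ hcomm huS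
    refine ⟨s₁, ?_, s₂, hs₂, rfl⟩
    rw [← hCA]
    refine ⟨hs₁, Subgroup.mem_centralizer_singleton_iff.mpr ?_⟩
    have h1 : a * (s₁ * s₂) = s₁ * s₂ * a := (Subgroup.mem_centralizer_iff.mp huc) a haA
    have h2 : a * s₂ = s₂ * a := hcomm a (hAP₁ haA) s₂ hs₂
    calc s₁ * a = s₁ * (a * s₂) * s₂⁻¹ := by group
      _ = s₁ * (s₂ * a) * s₂⁻¹ := by rw [h2]
      _ = (s₁ * s₂ * a) * s₂⁻¹ := by group
      _ = (a * (s₁ * s₂)) * s₂⁻¹ := by rw [h1]
      _ = a * s₁ := by group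
  intro u hu v hv
  obtain ⟨a₁, ha₁, b₁, hb₁, rfl⟩ := hdec u hu
  obtain ⟨a₂, ha₂, b₂, hb₂, rfl⟩ := hdec v hv
  have c1 : a₁ * a₂ = a₂ * a₁ := Cfsg.Agent.Lib.Helper23.isEA_comm hA ha₁ ha₂
  have c2 : b₁ * b₂ = b₂ * b₁ := comm_of_isCyclic_subgroup P₂ hcyc b₁ hb₁ b₂ hb₂
  have c3 : a₂ * b₁ = b₁ * a₂ := hcomm a₂ (hAP₁ ha₂) b₁ hb₁
  have c4 : a₁ * b₂ = b₂ * a₁ := hcomm a₁ (hAP₁ ha₁) b₂ hb₂
  calc a₁ * b₁ * (a₂ * b₂) = a₁ * (b₁ * a₂) * b₂ := by group
    _ = a₁ * (a₂ * b₁) * b₂ := by rw [c3]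
    _ = (a₁ * a₂) * (b₁ * b₂) := by group
    _ = (a₂ * a₁) * (b₂ * b₁) := by rw [c1, c2]
    _ = a₂ * (a₁ * b₂) * b₁ := by group
    _ = a₂ * (b₂ * a₁) * b₁ := by rw [c4]
    _ = a₂ * b₂ * (a₁ * b₁) := by group

/-- **BG 11.5, rank at least three.**  In a `p`-group of `p`-rank at least three (`p` odd) the
centralizer of a maximal elementary abelian subgroup of order `p ^ 2` is abelian. -/
theorem centralizer_ea_comm_of_rank_three {R : Type*} [Group R] [Finite R] (p : ℕ)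
    [hp : Fact p.Prime] (hp2 : p ≠ 2) (hR : IsPGroup p R) (hr : ¬ PRankLE p 2 R)
    (E : Subgroup R) (hE : IsElementaryAbelian p E) (hE2 : Nat.card E = p ^ 2)
    (hEmax : ∀ B : Subgroup R, IsElementaryAbelian p B → E ≤ B → B = E) :
    ∀ u ∈ Subgroup.centralizer (E : Set R), ∀ v ∈ Subgroup.centralizer (E : Set R),
      u * v = v * u := by
  have hpp : p.Prime := hp.out
  obtain ⟨h1, h2, -, h4, h5⟩ := Cfsg.Agent.S1453.result p hp2 hR hr E hE hE2 hEmax
  obtain ⟨W, hW⟩ : ∃ W : Subgroup R,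
      W = Subgroup.closure {x : R | x ∈ Subgroup.upperCentralSeries R 2 ∧ x ^ p = 1} := ⟨_, rfl⟩
  rw [← hW] at h1 h4 h5
  obtain ⟨T, hT⟩ : ∃ T : Subgroup R, T = Subgroup.centralizer (W : Set R) := ⟨_, rfl⟩
  rw [← hT] at h1 h4 h5
  obtain ⟨Z₁, hZ₁⟩ : ∃ Z₁ : Subgroup R,
      Z₁ = Subgroup.closure {x : R | x ∈ Subgroup.center R ∧ x ^ p = 1} := ⟨_, rfl⟩
  rw [← hZ₁] at h2
  have hTn : T.Normal := Subgroup.normal_of_characteristic T
  obtain ⟨x, hxE, hxT⟩ := SetLike.not_le_iff_exists.mp h1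
  have hZ₁c : Z₁ ≤ Subgroup.center R := by
    rw [hZ₁]
    exact (Subgroup.closure_le _).mpr (fun z hz => hz.1)
  have hZ₁E : Z₁ ≤ E := by
    rw [hZ₁]
    refine (Subgroup.closure_le _).mpr ?_
    rintro z ⟨hzc, hzp⟩
    have hB : IsElementaryAbelian p (E ⊔ Subgroup.zpowers z) := by
      refine Cfsg.Agent.Lib.Helper23.isEA_sup hE (Cfsg.Agent.Lib.Helper23.isEA_zpowers hzp) ?_
      intro a ha b hb
      obtain ⟨k, rfl⟩ := Subgroup.mem_zpowers_iff.mp hb
      have c : Commute a z := Subgroup.mem_center_iff.mp hzc a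
      exact (c.zpow_right k).eq
    have heq := hEmax _ hB le_sup_left
    have hz : z ∈ E ⊔ Subgroup.zpowers z := le_sup_right (a := E) (Subgroup.mem_zpowers z)
    rw [heq] at hz
    exact hz
  have hZ₁T : Z₁ ≤ T := by
    rw [hT]
    exact hZ₁c.trans (Subgroup.center_le_centralizer _)
  have hET : Z₁ = E ⊓ T := by
    apply Subgroup.eq_of_le_of_card_ge (le_inf hZ₁E hZ₁T)
    have hdvd : Nat.card ↥(E ⊓ T) ∣ p ^ 2 := by
      rw [← hE2]; exact Subgroup.card_dvd_of_le inf_le_left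
    obtain ⟨m, hm2, hm⟩ := (Nat.dvd_prime_pow hpp).mp hdvd
    have hm2' : m ≠ 2 := by
      intro h
      rw [h, ← hE2] at hm
      have heq : E ⊓ T = E := Subgroup.eq_of_le_of_card_ge inf_le_left hm.ge
      have : x ∈ E ⊓ T := by rw [heq]; exact hxE
      exact hxT this.2
    rw [hm, h2]
    have : m ≤ 1 := by omega
    have h3 := Nat.pow_le_pow_right hpp.pos this
    rwa [pow_one] at h3
  have hxZ : x ∉ Z₁ := fun h => hxT (hZ₁T h)
  have hEgen : E ≤ Z₁ ⊔ Subgroup.zpowers x := by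
    have hle : Z₁ ⊔ Subgroup.zpowers x ≤ E := sup_le hZ₁E ((Subgroup.zpowers_le).mpr hxE)
    have heq : Z₁ ⊔ Subgroup.zpowers x = E := by
      apply Subgroup.eq_of_le_of_card_ge hle
      have hdvd : Nat.card ↥(Z₁ ⊔ Subgroup.zpowers x) ∣ p ^ 2 := by
        rw [← hE2]; exact Subgroup.card_dvd_of_le hle
      obtain ⟨m, hm2, hm⟩ := (Nat.dvd_prime_pow hpp).mp hdvd
      have hlt : Z₁ < Z₁ ⊔ Subgroup.zpowers x := by
        refine lt_of_le_of_ne le_sup_left ?_
        intro h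
        apply hxZ
        rw [h]
        exact le_sup_right (a := Z₁) (Subgroup.mem_zpowers x)
      have h3 := Cfsg.Agent.Lib.Helper35.BG.card_lt_of_lt hlt
      rw [h2, hm] at h3
      have hm1 : 1 < m := by
        by_contra h4
        have h5 : m ≤ 1 := by omega
        have h6 := Nat.pow_le_pow_right hpp.pos h5
        rw [pow_one] at h6
        omega
      rw [hE2, hm]
      exact Nat.pow_le_pow_right hpp.pos hm1
    rw [heq]
  -- every element is a power of x times an element of T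
  have hq : Nat.card (R ⧸ T) = p := by rw [← Subgroup.index_eq_card]; exact h5
  have hx1 : (x : R ⧸ T) ≠ 1 := fun h => hxT ((QuotientGroup.eq_one_iff x).mp h)
  have htop : Subgroup.zpowers (x : R ⧸ T) = ⊤ := zpowers_eq_top_of_prime_card hq hx1
  have hdec : ∀ s : R, ∃ k : ℤ, (x ^ k)⁻¹ * s ∈ T := by
    intro s
    have hs : (s : R ⧸ T) ∈ Subgroup.zpowers (x : R ⧸ T) := by rw [htop]; exact Subgroup.mem_top _
    obtain ⟨k, hk⟩ := Subgroup.mem_zpowers_iff.mp hs
    refine ⟨k, ?_⟩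
    apply QuotientGroup.eq.mp
    rw [← hk]
    rfl
  -- D = C_T(x) is cyclic
  have hDrank : PRankLE p 1 ↥(T ⊓ Subgroup.centralizer ({x} : Set R)) := by
    rw [Cfsg.Agent.Lib.Helper24.pRankLE_subgroup_iff]
    intro B hBD hBc hBe
    have hBZ : B ≤ Z₁ := by
      intro b hb
      have hbT : b ∈ T := (hBD hb).1
      have hbx : b * x = x * b := Subgroup.mem_centralizer_singleton_iff.mp (hBD hb).2
      have hEb : E ≤ Subgroup.centralizer ({b} : Set R) := by
        refine hEgen.trans (sup_le ?_ ?_)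
        · exact hZ₁c.trans (Subgroup.center_le_centralizer _)
        · rw [Subgroup.zpowers_le, Subgroup.mem_centralizer_singleton_iff]
          exact hbx.symm
      have hB' : IsElementaryAbelian p (E ⊔ Subgroup.zpowers b) := by
        refine Cfsg.Agent.Lib.Helper23.isEA_sup hE
          (Cfsg.Agent.Lib.Helper23.isEA_zpowers (hBe b hb)) ?_
        intro a ha c hc
        obtain ⟨k, rfl⟩ := Subgroup.mem_zpowers_iff.mp hc
        have c1 : Commute a b := Subgroup.mem_centralizer_singleton_iff.mp (hEb ha)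
        exact (c1.zpow_right k).eq
      have heq := hEmax _ hB' le_sup_left
      have hbE : b ∈ E ⊔ Subgroup.zpowers b := le_sup_right (a := E) (Subgroup.mem_zpowers b)
      rw [heq] at hbE
      rw [hET]
      exact ⟨hbE, hbT⟩
    rw [pow_one, ← h2]
    exact Subgroup.card_le_of_le hBZ
  have hDcyc : IsCyclic ↥(T ⊓ Subgroup.centralizer ({x} : Set R)) :=
    Cfsg.Agent.Lib.Helper75.BG.isCyclic_of_pRankLE_one p hp2 (hR.to_subgroup _) hDrank
  have hDcomm := comm_of_isCyclic_subgroup _ hDcyc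
  -- decomposition of elements of C(E)
  have hdec2 : ∀ u ∈ Subgroup.centralizer (E : Set R), ∃ k : ℤ,
      ∃ t ∈ T ⊓ Subgroup.centralizer ({x} : Set R), u = x ^ k * t := by
    intro u hu
    obtain ⟨k, hk⟩ := hdec u
    refine ⟨k, (x ^ k)⁻¹ * u, Subgroup.mem_inf.mpr ⟨hk, ?_⟩, by group⟩
    rw [Subgroup.mem_centralizer_singleton_iff]
    have h6 : x * u = u * x := (Subgroup.mem_centralizer_iff.mp hu) x hxE
    have c1 : Commute x u := h6
    have c2 : Commute x ((x ^ k)⁻¹) := ((Commute.refl x).zpow_right k).inv_right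
    exact (c2.mul_right c1).symm.eq
  intro u hu v hv
  obtain ⟨k, t, ht, rfl⟩ := hdec2 u hu
  obtain ⟨l, t', ht', rfl⟩ := hdec2 v hv
  have c1 : Commute t x := Subgroup.mem_centralizer_singleton_iff.mp ht.2
  have c2 : Commute t' x := Subgroup.mem_centralizer_singleton_iff.mp ht'.2
  have c3 : t * t' = t' * t := hDcomm t ht t' ht'
  have c4 : t * x ^ l = x ^ l * t := (c1.zpow_right l).eq
  have c5 : t' * x ^ k = x ^ k * t' := (c2.zpow_right k).eq
  have c6 : x ^ k * x ^ l = x ^ l * x ^ k := by rw [← zpow_add, ← zpow_add, add_comm]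
  calc x ^ k * t * (x ^ l * t') = x ^ k * (t * x ^ l) * t' := by group
    _ = x ^ k * (x ^ l * t) * t' := by rw [c4]
    _ = (x ^ k * x ^ l) * (t * t') := by group
    _ = (x ^ l * x ^ k) * (t' * t) := by rw [c6, c3]
    _ = x ^ l * (x ^ k * t') * t := by group
    _ = x ^ l * (t' * x ^ k) * t := by rw [c5]
    _ = x ^ l * t' * (x ^ k * t) := by group

/-- **BG 11.5, Sylow form.**  The centralizer in a Sylow `p`-subgroup `S` of `G` of a maximal
elementary abelian subgroup of `S` of order `p ^ 2` is abelian. -/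
theorem centralizer_ea_comm_sylow {G : Type*} [Group G] [Finite G] (hG : IsMinSimpleOddOrder G)
    (h1412 : type_of% (@Cfsg.CfsgFrozen.S1412 G _ _ hG))
    (p : ℕ) [hp : Fact p.Prime] (S : Sylow p G) (A : Subgroup G) (hAS : A ≤ S)
    (hA : IsElementaryAbelian p A) (hA2 : Nat.card A = p ^ 2)
    (hmax : ∀ B : Subgroup G, B ≤ S → IsElementaryAbelian p B → A ≤ B → B = A) :
    ∀ u ∈ (S : Subgroup G) ⊓ Subgroup.centralizer (A : Set G),
      ∀ v ∈ (S : Subgroup G) ⊓ Subgroup.centralizer (A : Set G), u * v = v * u := by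
  have hpp : p.Prime := hp.out
  by_cases hr : PRankLE p 2 ↥(S : Subgroup G)
  · rcases h1412 p S hr with hc | ⟨P₁, P₂, hS, hcomm, -, hcard, hexp, hcyc, hZ⟩
    · intro u hu v hv
      exact congrArg Subtype.val (isMulCommutative_iff.mp hc ⟨u, hu.1⟩ ⟨v, hv.1⟩)
    · refine centralizer_ea_comm_of_central_product S P₁ P₂ A hS hcomm hcard ?_ hcyc hZ hAS hA hA2
      intro a ha
      have h1 : (⟨a, ha⟩ : P₁) ^ Monoid.exponent P₁ = 1 := Monoid.pow_exponent_eq_one _
      rw [hexp] at h1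
      exact congrArg Subtype.val h1
  · have hp2 : p ≠ 2 := by
      intro h2
      have hodd := Cfsg.Agent.Lib.Helper35.BG.odd_card_subgroup hG A
      rw [hA2, h2] at hodd
      exact absurd hodd (by decide)
    have hE : IsElementaryAbelian p (A.subgroupOf (S : Subgroup G)) := by
      constructor
      · rw [isMulCommutative_iff]
        rintro ⟨a, ha⟩ ⟨b, hb⟩
        apply Subtype.ext
        apply Subtype.ext
        exact Cfsg.Agent.Lib.Helper23.isEA_comm hA (Subgroup.mem_subgroupOf.mp ha)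
          (Subgroup.mem_subgroupOf.mp hb)
      · intro a ha
        apply Subtype.ext
        have h1 := hA.2 (a : G) (Subgroup.mem_subgroupOf.mp ha)
        simpa using h1
    have hE2 : Nat.card (A.subgroupOf (S : Subgroup G)) = p ^ 2 := by
      rw [Nat.card_congr (Subgroup.subgroupOfEquivOfLe hAS).toEquiv, hA2]
    have hEmax : ∀ B : Subgroup ↥(S : Subgroup G), IsElementaryAbelian p B →
        A.subgroupOf (S : Subgroup G) ≤ B → B = A.subgroupOf (S : Subgroup G) := by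
      intro B hB hEB
      have hB' : IsElementaryAbelian p (B.map (S : Subgroup G).subtype) := by
        constructor
        · rw [isMulCommutative_iff]
          rintro ⟨_, a, ha, rfl⟩ ⟨_, b, hb, rfl⟩
          apply Subtype.ext
          have h1 := Cfsg.Agent.Lib.Helper23.isEA_comm hB ha hb
          show (a : G) * (b : G) = (b : G) * (a : G)
          exact congrArg Subtype.val h1
        · rintro _ ⟨a, ha, rfl⟩
          have h1 := hB.2 a ha
          have h2 := congrArg Subtype.val h1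
          simpa using h2
      have hAB : A ≤ B.map (S : Subgroup G).subtype := by
        intro a ha
        exact ⟨⟨a, hAS ha⟩, hEB (Subgroup.mem_subgroupOf.mpr ha), rfl⟩
      have heq := hmax _ (Subgroup.map_subtype_le B) hB' hAB
      ext b
      rw [Subgroup.mem_subgroupOf, ← heq]
      constructor
      · intro hb
        exact ⟨b, hb, rfl⟩
      · rintro ⟨b', hb', hbb⟩
        have h3 : b' = b := Subtype.ext hbb
        rw [← h3]
        exact hb'
    have key := centralizer_ea_comm_of_rank_three p hp2 S.isPGroup' hr _ hE hE2 hEmax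
    intro u hu v hv
    have hu' : (⟨u, hu.1⟩ : ↥(S : Subgroup G)) ∈
        Subgroup.centralizer ((A.subgroupOf (S : Subgroup G) : Subgroup ↥(S : Subgroup G)) :
          Set ↥(S : Subgroup G)) := by
      rw [Subgroup.mem_centralizer_iff]
      intro h hh
      apply Subtype.ext
      exact (Subgroup.mem_centralizer_iff.mp hu.2) (h : G) (Subgroup.mem_subgroupOf.mp hh)
    have hv' : (⟨v, hv.1⟩ : ↥(S : Subgroup G)) ∈
        Subgroup.centralizer ((A.subgroupOf (S : Subgroup G) : Subgroup ↥(S : Subgroup G)) :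
          Set ↥(S : Subgroup G)) := by
      rw [Subgroup.mem_centralizer_iff]
      intro h hh
      apply Subtype.ext
      exact (Subgroup.mem_centralizer_iff.mp hv.2) (h : G) (Subgroup.mem_subgroupOf.mp hh)
    exact congrArg Subtype.val (key _ hu' _ hv')

/-- For nilpotent `M_σ` (a Hall subgroup of `M`) and a prime `q` dividing its order, the Sylow
`q`-subgroup of `M_σ` is nontrivial, normal in `M` and a Sylow `q`-subgroup of `G`. -/
theorem exists_normal_sylow_sigmaCore {G : Type*} [Group G] [Finite G] (M : Subgroup G)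
    (hHall : IsPiHallOf (sigma M) (sigmaCore M) M) (hnil : Group.IsNilpotent (sigmaCore M))
    (q : ℕ) [hq : Fact q.Prime] (hqd : q ∣ Nat.card (sigmaCore M)) :
    ∃ Q : Subgroup G, Q ≤ sigmaCore M ∧ Q ≠ ⊥ ∧ M ≤ Subgroup.normalizer (Q : Set G) ∧
      ∃ S : Sylow q G, (S : Subgroup G) = Q := by
  have hqq : q.Prime := hq.out
  have hqσ : q ∈ sigma M := Cfsg.Agent.Lib.Helper67.BG.sigmaCore_isPi M q hqq hqd
  obtain ⟨Q'⟩ : Nonempty (Sylow q ↥(sigmaCore M)) := inferInstance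
  have hQle : (Q' : Subgroup ↥(sigmaCore M)).map (sigmaCore M).subtype ≤ sigmaCore M :=
    Subgroup.map_subtype_le _
  have hcard : Nat.card ↥((Q' : Subgroup ↥(sigmaCore M)).map (sigmaCore M).subtype) =
      q ^ (Nat.card (sigmaCore M)).factorization q := by
    rw [Subgroup.card_map_of_injective (sigmaCore M).subtype_injective, Sylow.card_eq_multiplicity]
  obtain ⟨hsplit, -⟩ := card_sigma_split M hHall
  have hM0 : Nat.card M ≠ 0 := Nat.card_pos.ne'
  have hfac : (Nat.card M).factorization q = (Nat.card (sigmaCore M)).factorization q := by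
    have h1 : (sigmaCore M).relIndex M ≠ 0 := by
      intro h0; rw [h0, zero_mul] at hsplit; exact hM0 hsplit
    have h2 : Nat.card (sigmaCore M) ≠ 0 := Nat.card_pos.ne'
    rw [hsplit, Nat.factorization_mul h1 h2, Finsupp.add_apply,
      Nat.factorization_eq_zero_of_not_dvd (hHall.2.2 q hqq hqσ), zero_add]
  have hsylM : Cfsg.Agent.Lib.Helper46.IsSylowIn q
      ((Q' : Subgroup ↥(sigmaCore M)).map (sigmaCore M).subtype) M :=
    ⟨hQle.trans (Cfsg.Agent.Lib.Helper67.BG.sigmaCore_le M), by rw [hcard, hfac]⟩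
  have hsylG := Cfsg.Agent.Lib.Helper35.BG.isSylowIn_top_of_sigma hqσ hsylM
  have hcardG : Nat.card ↥((Q' : Subgroup ↥(sigmaCore M)).map (sigmaCore M).subtype) =
      q ^ (Nat.card G).factorization q := by
    have h3 := hsylG.2
    rwa [Subgroup.card_top] at h3
  refine ⟨_, hQle, ?_, ?_, Sylow.ofCard _ hcardG, rfl⟩
  · intro hbot
    rw [hbot, Subgroup.card_bot] at hcard
    have hpos : 0 < (Nat.card (sigmaCore M)).factorization q :=
      Nat.Prime.factorization_pos_of_dvd hqq Nat.card_pos.ne' hqd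
    have h4 : q ^ 1 ≤ q ^ (Nat.card (sigmaCore M)).factorization q :=
      Nat.pow_le_pow_right hqq.pos hpos
    rw [pow_one, ← hcard] at h4
    exact absurd h4 (by have := hqq.two_le; omega)
  · intro m hm
    apply Cfsg.Agent.Lib.Helper75.BG.mem_normalizer_of_map_le
    rintro _ ⟨x, ⟨x', hx', rfl⟩, rfl⟩
    -- the conjugate of Q' by m is a q-subgroup of M_σ, hence inside the normal Sylow Q'
    have hall : ∀ (p : ℕ) (_hp : Fact p.Prime) (P : Sylow p ↥(sigmaCore M)),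
        (P : Subgroup ↥(sigmaCore M)).Normal :=
      ((Group.isNilpotent_of_finite_tfae (G := ↥(sigmaCore M))).out 0 3).mp hnil
    have hnorm : (Q' : Subgroup ↥(sigmaCore M)).Normal := hall q hq Q'
    have hmN := Cfsg.Agent.Lib.Helper67.BG.sigmaCore_normalizer M hm
    have hmem : m * (x' : G) * m⁻¹ ∈ sigmaCore M :=
      (Subgroup.mem_normalizer_iff.mp hmN x').mp x'.2
    let Q₂ : Subgroup G :=
      ((Q' : Subgroup ↥(sigmaCore M)).map (sigmaCore M).subtype).map (MulAut.conj m).toMonoidHom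
    have hQ₂q : IsPGroup q Q₂ :=
      Cfsg.Agent.Lib.Helper35.BG.isPGroup_map_conj (Q'.isPGroup'.map _) m
    have hQ₂sub : IsPGroup q (Q₂.subgroupOf (sigmaCore M)) := hQ₂q.comap_subtype
    obtain ⟨R, hR⟩ := hQ₂sub.exists_le_sylow
    have huniq := Sylow.unique_of_normal Q' hnorm
    have hRQ : R = Q' := Subsingleton.elim _ _
    have h5 : (⟨m * (x' : G) * m⁻¹, hmem⟩ : ↥(sigmaCore M)) ∈ Q₂.subgroupOf (sigmaCore M) := by
      rw [Subgroup.mem_subgroupOf]
      exact ⟨x', ⟨x', hx', rfl⟩, rfl⟩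
    have h6 := hR h5
    rw [hRQ] at h6
    exact ⟨⟨m * (x' : G) * m⁻¹, hmem⟩, h6, rfl⟩

/-- **BG 11.5** for a `p`-subgroup `P ≥ A` of `M` whose normalizer is not contained in `M`. -/
theorem sec11_comm_of_normalizer {G : Type*} [Group G] [Finite G] (hG : IsMinSimpleOddOrder G)
    (h1412 : type_of% (@Cfsg.CfsgFrozen.S1412 G _ _ hG))
    (M : Subgroup G) (p : ℕ) [hp : Fact p.Prime] (hpσ : p ∉ sigma M)
    (A A₀ : Subgroup G) (hAM : A ≤ M) (hA : IsElementaryAbelian p A) (hA2 : Nat.card A = p ^ 2)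
    (hA₀ : A₀ ≤ A) (hA₀p : Nat.card A₀ = p) (hN : Subgroup.normalizer (A₀ : Set G) ≤ M)
    (hr2 : PRankLE p 2 M) (hHall : IsPiHallOf (sigma M) (sigmaCore M) M)
    (h11_1b : ∀ g : G, g ∉ M → A ≤ M.map (MulAut.conj g).toMonoidHom →
      ∀ (q : ℕ) [Fact q.Prime] (Q1 Q2 : Subgroup G), Q1 ≤ sigmaCore M →
      Q2 ≤ (sigmaCore M).map (MulAut.conj g).toMonoidHom →
      (∃ S : Sylow q G, (S : Subgroup G) = Q1) → (∃ S : Sylow q G, (S : Subgroup G) = Q2) →
      A ≤ Subgroup.normalizer (Q1 : Set G) → A ≤ Subgroup.normalizer (Q2 : Set G) →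
      ∀ X : Subgroup G, X ≤ A → Nat.card X = p →
      Q1 ⊓ Subgroup.centralizer (X : Set G) ≠ ⊥ → Q2 ⊓ Subgroup.centralizer (X : Set G) = ⊥)
    (h11_2b : ∀ g : G, g ∉ M → A ≤ M.map (MulAut.conj g).toMonoidHom →
      sigmaCore M ⊓ Subgroup.centralizer ((A₀.map (MulAut.conj g).toMonoidHom : Subgroup G) : Set G)
        = ⊥)
    (h11_3 : Group.IsNilpotent (sigmaCore M)) (hne : sigmaCore M ≠ ⊥)
    (P : Subgroup G) (hPM : P ≤ M) (hP : IsPGroup p P) (hAP : A ≤ P)
    (g : G) (hgN : g ∈ Subgroup.normalizer (P : Set G)) (hgM : g ∉ M) :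
    ∀ u ∈ P, ∀ v ∈ P, u * v = v * u := by
  have hpp : p.Prime := hp.out
  have hrk : ∀ B : Subgroup G, B ≤ P → IsElementaryAbelian p B → Nat.card B ≤ p ^ 2 :=
    fun B hB hBea => (Cfsg.Agent.Lib.Helper24.pRankLE_subgroup_iff p 2 M).mp hr2 B (hB.trans hPM)
      (fun a ha b hb => Cfsg.Agent.Lib.Helper23.isEA_comm hBea ha hb) hBea.2
  have hR : ¬ p ∣ Nat.card (sigmaCore M) := fun h =>
    hpσ (Cfsg.Agent.Lib.Helper67.BG.sigmaCore_isPi M p hpp h)
  have hPR : P ≤ Subgroup.normalizer (sigmaCore M : Set G) :=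
    hPM.trans (Cfsg.Agent.Lib.Helper67.BG.sigmaCore_normalizer M)
  have hginv : g⁻¹ ∈ Subgroup.normalizer (P : Set G) := inv_mem hgN
  have hconjP : ∀ w ∈ P, g * w * g⁻¹ ∈ P := fun w hw => (Subgroup.mem_normalizer_iff.mp hgN w).mp hw
  have hconjP' : ∀ w ∈ P, g⁻¹ * w * g ∈ P := by
    intro w hw
    have h1 := (Subgroup.mem_normalizer_iff.mp hginv w).mp hw
    simpa using h1
  have hAg : A ≤ M.map (MulAut.conj g).toMonoidHom := by
    intro a ha
    rw [Cfsg.Agent.Lib.Helper35.BG.mem_map_conj_iff]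
    exact hPM (hconjP' a (hAP ha))
  have hfpf := h11_2b g hgM hAg
  -- a generator of A₀
  have hA₀fin : Finite A₀ := inferInstance
  have hA₀nt : Nontrivial A₀ := Finite.one_lt_card_iff_nontrivial.mp (by rw [hA₀p]; exact hpp.one_lt)
  obtain ⟨⟨a₀, ha₀⟩, ha₀ne⟩ := exists_ne (1 : A₀)
  have ha₀1 : a₀ ≠ 1 := fun h => ha₀ne (Subtype.ext h)
  have ha₀p : a₀ ^ p = 1 := hA.2 a₀ (hA₀ ha₀)
  have ha₀gen : ∀ b ∈ A₀, ∃ k : ℤ, a₀ ^ k = b := by
    intro b hb
    have htop : Subgroup.zpowers (⟨a₀, ha₀⟩ : A₀) = ⊤ := zpowers_eq_top_of_prime_card hA₀p ha₀ne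
    have hb' : (⟨b, hb⟩ : A₀) ∈ Subgroup.zpowers (⟨a₀, ha₀⟩ : A₀) := by
      rw [htop]; exact Subgroup.mem_top _
    obtain ⟨k, hk⟩ := Subgroup.mem_zpowers_iff.mp hb'
    refine ⟨k, ?_⟩
    have h1 := congrArg Subtype.val hk
    simpa using h1
  obtain ⟨y, hydef⟩ : ∃ y : G, y = g * a₀ * g⁻¹ := ⟨_, rfl⟩
  have hyP : y ∈ P := hydef ▸ hconjP a₀ (hAP (hA₀ ha₀))
  have hyp : y ^ p = 1 := by rw [hydef, conj_pow, ha₀p]; group
  have hy1 : y ≠ 1 := by
    intro h
    apply ha₀1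
    have h1 : a₀ = g⁻¹ * y * g := by rw [hydef]; group
    rw [h1, h]; group
  have hyord : orderOf y = p := orderOf_eq_prime hyp hy1
  have hyfpf : sigmaCore M ⊓ Subgroup.centralizer ({y} : Set G) = ⊥ := by
    rw [eq_bot_iff, ← hfpf]
    rintro r ⟨hr1, hr2⟩
    refine Subgroup.mem_inf.mpr ⟨hr1, ?_⟩
    rw [Subgroup.mem_centralizer_iff]
    rintro _ ⟨b, hb, rfl⟩
    obtain ⟨k, rfl⟩ := ha₀gen b hb
    have h1 : (MulAut.conj g).toMonoidHom (a₀ ^ k) = y ^ k := by
      rw [map_zpow, hydef]; rfl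
    rw [h1]
    have c : Commute r y := Subgroup.mem_centralizer_singleton_iff.mp hr2
    exact (c.zpow_right k).symm.eq
  by_cases hyc : ∀ x ∈ P, x * y = y * x
  · -- Case 2: y is central in P
    have hyA : y ∈ A := mem_of_ea_rank_two hr2 hAM hA hA2 (hPM hyP) hyp
      (fun a ha => hyc a (hAP ha))
    -- Z = Ω₁(Z(P))
    let Z : Subgroup G :=
      { carrier := {z | z ∈ P ∧ z ^ p = 1 ∧ ∀ x ∈ P, x * z = z * x}
        mul_mem' := by
          rintro a b ⟨ha, hap, hac⟩ ⟨hb, hbp, hbc⟩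
          refine ⟨P.mul_mem ha hb, ?_, ?_⟩
          · have c : Commute a b := hbc a ha
            rw [c.mul_pow, hap, hbp, one_mul]
          · intro x hx
            have c1 : Commute x a := hac x hx
            have c2 : Commute x b := hbc x hx
            exact (c1.mul_right c2).eq
        one_mem' := ⟨P.one_mem, one_pow p, fun x _ => by rw [mul_one, one_mul]⟩
        inv_mem' := by
          rintro a ⟨ha, hap, hac⟩
          refine ⟨P.inv_mem ha, by rw [inv_pow, hap, inv_one], ?_⟩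
          intro x hx
          have c1 : Commute x a := hac x hx
          exact c1.inv_right.eq }
    have hZA : Z ≤ A := by
      rintro z ⟨hzP, hzp, hzc⟩
      exact mem_of_ea_rank_two hr2 hAM hA hA2 (hPM hzP) hzp (fun a ha => hzc a (hAP ha))
    have hyZ : y ∈ Z := ⟨hyP, hyp, hyc⟩
    have hAcentral : ∀ a ∈ A, ∀ x ∈ P, x * a = a * x := by
      by_contra hcon
      have hZne : Z ≠ A := by
        intro h
        apply hcon
        intro a ha x hx
        have haZ : a ∈ Z := by rw [h]; exact ha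
        exact haZ.2.2 x hx
      -- |Z| = p, so Z = ⟨y⟩
      have hZcard : Nat.card Z ≤ p := by
        have hdvd : Nat.card Z ∣ p ^ 2 := by rw [← hA2]; exact Subgroup.card_dvd_of_le hZA
        obtain ⟨m, hm2, hm⟩ := (Nat.dvd_prime_pow hpp).mp hdvd
        have hm2' : m ≠ 2 := by
          intro h
          rw [h, ← hA2] at hm
          exact hZne (Subgroup.eq_of_le_of_card_ge hZA hm.ge)
        rw [hm]
        have : m ≤ 1 := by omega
        have h3 := Nat.pow_le_pow_right hpp.pos this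
        rwa [pow_one] at h3
      have hZy : Subgroup.zpowers y = Z :=
        Subgroup.eq_of_le_of_card_ge ((Subgroup.zpowers_le).mpr hyZ)
          (by rw [Nat.card_zpowers, hyord]; exact hZcard)
      -- a₀ = g⁻¹ y g is central in P of order p, so a₀ ∈ Z = ⟨y⟩
      have ha₀Z : a₀ ∈ Z := by
        refine ⟨hAP (hA₀ ha₀), ha₀p, ?_⟩
        intro x hx
        have h1 : g * x * g⁻¹ * y = y * (g * x * g⁻¹) := hyc _ (hconjP x hx)
        rw [hydef] at h1
        calc x * a₀ = g⁻¹ * (g * x * g⁻¹ * (g * a₀ * g⁻¹)) * g := by group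
          _ = g⁻¹ * (g * a₀ * g⁻¹ * (g * x * g⁻¹)) * g := by rw [h1]
          _ = a₀ * x := by group
      rw [← hZy] at ha₀Z
      obtain ⟨k, hk⟩ := Subgroup.mem_zpowers_iff.mp ha₀Z
      -- A₀ = ⟨a₀⟩ = ⟨y⟩ is normalized by g
      have hA₀y : A₀ = Subgroup.zpowers y := by
        symm
        apply Subgroup.eq_of_le_of_card_ge
        · rw [Subgroup.zpowers_le]
          -- y ∈ A₀: y is a power of a₀ since a₀ generates ⟨y⟩
          have hgen : Subgroup.zpowers a₀ = Subgroup.zpowers y := by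
            apply Subgroup.eq_of_le_of_card_ge
            · rw [Subgroup.zpowers_le, ← hk]
              exact Subgroup.zpow_mem _ (Subgroup.mem_zpowers y) k
            · rw [Nat.card_zpowers, Nat.card_zpowers, hyord, orderOf_eq_prime ha₀p ha₀1]
          have hy' : y ∈ Subgroup.zpowers a₀ := by rw [hgen]; exact Subgroup.mem_zpowers y
          exact ((Subgroup.zpowers_le).mpr ha₀) hy'
        · rw [Nat.card_zpowers, hyord, hA₀p]
      apply hgM
      apply hN
      apply Cfsg.Agent.Lib.Helper75.BG.mem_normalizer_of_map_le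
      rintro _ ⟨b, hb, rfl⟩
      obtain ⟨l, rfl⟩ := ha₀gen b hb
      have h1 : (MulAut.conj g).toMonoidHom (a₀ ^ l) = y ^ l := by
        rw [map_zpow, hydef]; rfl
      rw [h1, hA₀y]
      exact Subgroup.zpow_mem _ (Subgroup.mem_zpowers y) l
    -- P ≤ C_S(A) for a Sylow p-subgroup S of G
    obtain ⟨S, hPS⟩ := hP.exists_le_sylow
    have hCA : Subgroup.centralizer (A : Set G) ≤ M :=
      ((Cfsg.Agent.Lib.Helper35.BG.centralizer_anti hA₀).trans
        (Cfsg.Agent.Lib.Helper35.BG.centralizer_le_normalizer' A₀)).trans hN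
    have hmax : ∀ B : Subgroup G, B ≤ S → IsElementaryAbelian p B → A ≤ B → B = A := by
      intro B _ hB hAB
      symm
      apply Subgroup.eq_of_le_of_card_ge hAB
      rw [hA2]
      have hBM : B ≤ M := by
        intro b hb
        apply hCA
        rw [Subgroup.mem_centralizer_iff]
        intro a ha
        exact Cfsg.Agent.Lib.Helper23.isEA_comm hB (hAB ha) hb
      exact (Cfsg.Agent.Lib.Helper24.pRankLE_subgroup_iff p 2 M).mp hr2 B hBM
        (fun a ha b hb => Cfsg.Agent.Lib.Helper23.isEA_comm hB ha hb) hB.2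
    have key := centralizer_ea_comm_sylow hG h1412 p S A (hAP.trans hPS) hA hA2 hmax
    have hPC : ∀ u ∈ P, u ∈ (S : Subgroup G) ⊓ Subgroup.centralizer (A : Set G) := by
      intro u hu
      refine Subgroup.mem_inf.mpr ⟨hPS hu, ?_⟩
      rw [Subgroup.mem_centralizer_iff]
      intro a ha
      exact (hAcentral a ha u hu).symm
    intro u hu v hv
    exact key u (hPC u hu) v (hPC v hv)
  · -- Case 1: y is not central in P: impossible
    exfalso
    push Not at hyc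
    obtain ⟨x₀, hx₀, hx₀y⟩ := hyc
    have hPnt : Nontrivial ↥P := ⟨⟨⟨y, hyP⟩, 1, fun h => hy1 (congrArg Subtype.val h)⟩⟩
    obtain ⟨z, hzc, hzord⟩ := Cfsg.Agent.Lib.Helper23.exists_central_orderOf_eq p hP
    have hz₀ord : orderOf (z : G) = p := by rw [Subgroup.orderOf_coe]; exact hzord
    have hz₀c : ∀ x ∈ P, x * (z : G) = (z : G) * x := by
      intro x hx
      have h1 := Subgroup.mem_center_iff.mp hzc ⟨x, hx⟩
      exact congrArg Subtype.val h1
    have hz₀p : (z : G) ^ p = 1 := by rw [← hz₀ord]; exact pow_orderOf_eq_one _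
    -- the conjugate z' = g⁻¹ z g
    have hz'P : g⁻¹ * (z : G) * g ∈ P := hconjP' _ z.2
    have hz'p : (g⁻¹ * (z : G) * g) ^ p = 1 := by
      have h1 := conj_pow (a := g⁻¹) (b := (z : G)) (i := p)
      rw [inv_inv] at h1
      rw [h1, hz₀p]; group
    have hz'1 : g⁻¹ * (z : G) * g ≠ 1 := by
      intro h
      have h1 : (z : G) = g * (g⁻¹ * (z : G) * g) * g⁻¹ := by group
      rw [h, mul_one, mul_inv_cancel] at h1
      rw [h1, orderOf_one] at hz₀ord
      exact hpp.one_lt.ne hz₀ord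
    have hz'ord : orderOf (g⁻¹ * (z : G) * g) = p := orderOf_eq_prime hz'p hz'1
    have hz'c : ∀ x ∈ P, x * (g⁻¹ * (z : G) * g) = g⁻¹ * (z : G) * g * x := by
      intro x hx
      have h1 := hz₀c _ (hconjP x hx)
      calc x * (g⁻¹ * (z : G) * g) = g⁻¹ * (g * x * g⁻¹ * (z : G)) * g := by group
        _ = g⁻¹ * ((z : G) * (g * x * g⁻¹)) * g := by rw [h1]
        _ = g⁻¹ * (z : G) * g * x := by group
    have hc1 := central_centralizes_of_fpf P (sigmaCore M) hP hR hPR hrk y hyP hyord x₀ hx₀ hx₀y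
      hyfpf (z : G) z.2 hz₀ord hz₀c
    have hc2 := central_centralizes_of_fpf P (sigmaCore M) hP hR hPR hrk y hyP hyord x₀ hx₀ hx₀y
      hyfpf (g⁻¹ * (z : G) * g) hz'P hz'ord hz'c
    -- a Sylow q-subgroup of M_σ
    have hcard1 : Nat.card (sigmaCore M) ≠ 1 := fun h => hne (Subgroup.card_eq_one.mp h)
    obtain ⟨q, hq, hqd⟩ := Nat.exists_prime_and_dvd hcard1
    have : Fact q.Prime := ⟨hq⟩
    obtain ⟨Q1, hQ1le, hQ1ne, hQ1norm, hQ1syl⟩ :=
      exists_normal_sylow_sigmaCore M hHall h11_3 q hqd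
    obtain ⟨S1, hS1⟩ := hQ1syl
    have hQ2card : Nat.card ↥(Q1.map (MulAut.conj g).toMonoidHom) =
        q ^ (Nat.card G).factorization q := by
      rw [Cfsg.Agent.Lib.Helper35.BG.card_map_conj, ← hS1, Sylow.card_eq_multiplicity]
    have hAQ2 : A ≤ Subgroup.normalizer ((Q1.map (MulAut.conj g).toMonoidHom : Subgroup G) : Set G) := by
      rw [Cfsg.Agent.Lib.Helper35.BG.normalizer_map_conj]
      intro a ha
      obtain ⟨m, hm, hma⟩ := hAg ha
      exact ⟨m, hQ1norm hm, hma⟩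
    have hzA : (z : G) ∈ A := mem_of_ea_rank_two hr2 hAM hA hA2 (hPM z.2) hz₀p
      (fun a ha => hz₀c a (hAP ha))
    have hXA : Subgroup.zpowers (z : G) ≤ A := (Subgroup.zpowers_le).mpr hzA
    have hXcard : Nat.card (Subgroup.zpowers (z : G)) = p := by rw [Nat.card_zpowers, hz₀ord]
    have hQ1X : Q1 ≤ Subgroup.centralizer ((Subgroup.zpowers (z : G) : Subgroup G) : Set G) := by
      intro u hu
      rw [Subgroup.mem_centralizer_iff]
      intro h hh
      obtain ⟨k, rfl⟩ := Subgroup.mem_zpowers_iff.mp hh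
      have c : Commute u (z : G) := hc1 u (hQ1le hu)
      exact (c.zpow_right k).symm.eq
    have h1 : Q1 ⊓ Subgroup.centralizer ((Subgroup.zpowers (z : G) : Subgroup G) : Set G) ≠ ⊥ := by
      rw [inf_of_le_left hQ1X]; exact hQ1ne
    have h2 := h11_1b g hgM hAg q Q1 (Q1.map (MulAut.conj g).toMonoidHom) hQ1le
      (Subgroup.map_mono hQ1le) ⟨S1, hS1⟩ ⟨Sylow.ofCard _ hQ2card, rfl⟩
      (hAM.trans hQ1norm) hAQ2 (Subgroup.zpowers (z : G)) hXA hXcard h1
    have hQ2X : Q1.map (MulAut.conj g).toMonoidHom ≤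
        Subgroup.centralizer ((Subgroup.zpowers (z : G) : Subgroup G) : Set G) := by
      rintro _ ⟨v, hv, rfl⟩
      rw [Subgroup.mem_centralizer_iff]
      intro h hh
      obtain ⟨k, rfl⟩ := Subgroup.mem_zpowers_iff.mp hh
      have c0 : v * (g⁻¹ * (z : G) * g) = g⁻¹ * (z : G) * g * v := hc2 v (hQ1le hv)
      have c : Commute (g * v * g⁻¹) (z : G) := by
        show g * v * g⁻¹ * (z : G) = (z : G) * (g * v * g⁻¹)
        calc g * v * g⁻¹ * (z : G) = g * (v * (g⁻¹ * (z : G) * g)) * g⁻¹ := by group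
          _ = g * (g⁻¹ * (z : G) * g * v) * g⁻¹ := by rw [c0]
          _ = (z : G) * (g * v * g⁻¹) := by group
      exact (c.zpow_right k).symm.eq
    rw [inf_of_le_left hQ2X] at h2
    apply hQ1ne
    rw [eq_bot_iff]
    intro u hu
    have h3 : (MulAut.conj g).toMonoidHom u ∈ Q1.map (MulAut.conj g).toMonoidHom := ⟨u, hu, rfl⟩
    rw [h2, Subgroup.mem_bot] at h3
    rw [Subgroup.mem_bot]
    exact (MulAut.conj g).injective (h3.trans (map_one _).symm)

/-- **BG 11.5 and 11.6** (exceptional maximal subgroups).  `M` a subgroup with `p ∉ σ(M)`,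
`A ≤ M` elementary abelian of order `p ^ 2`, `A₀ ≤ A` of order `p` with `N_G(A₀) ≤ M`, `M` of
`p`-rank two, `M_σ` a nilpotent nontrivial Hall subgroup, and 11.1(b), 11.2(b) as hypotheses.
Then the Sylow `p`-subgroups of `M` are abelian; for a Sylow `p`-subgroup `P ≥ A` of `M`,
`A = Ω₁(P)` and `N_G(P) ⊄ M`; `C_{M_σ}(A) = 1`; and some `A₁ ≤ A` of order `p` acts
fixed-point-freely on `M_σ`. -/
theorem sec11_abelian {G : Type*} [Group G] [Finite G] (hG : IsMinSimpleOddOrder G)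
    (h1412 : type_of% (@Cfsg.CfsgFrozen.S1412 G _ _ hG))
    (M : Subgroup G) (p : ℕ) [hp : Fact p.Prime] (hpσ : p ∉ sigma M)
    (A A₀ : Subgroup G) (hAM : A ≤ M) (hA : IsElementaryAbelian p A) (hA2 : Nat.card A = p ^ 2)
    (hA₀ : A₀ ≤ A) (hA₀p : Nat.card A₀ = p) (hN : Subgroup.normalizer (A₀ : Set G) ≤ M)
    (hr2 : PRankLE p 2 M) (hHall : IsPiHallOf (sigma M) (sigmaCore M) M)
    (h11_1b : ∀ g : G, g ∉ M → A ≤ M.map (MulAut.conj g).toMonoidHom →
      ∀ (q : ℕ) [Fact q.Prime] (Q1 Q2 : Subgroup G), Q1 ≤ sigmaCore M →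
      Q2 ≤ (sigmaCore M).map (MulAut.conj g).toMonoidHom →
      (∃ S : Sylow q G, (S : Subgroup G) = Q1) → (∃ S : Sylow q G, (S : Subgroup G) = Q2) →
      A ≤ Subgroup.normalizer (Q1 : Set G) → A ≤ Subgroup.normalizer (Q2 : Set G) →
      ∀ X : Subgroup G, X ≤ A → Nat.card X = p →
      Q1 ⊓ Subgroup.centralizer (X : Set G) ≠ ⊥ → Q2 ⊓ Subgroup.centralizer (X : Set G) = ⊥)
    (h11_2b : ∀ g : G, g ∉ M → A ≤ M.map (MulAut.conj g).toMonoidHom →
      sigmaCore M ⊓ Subgroup.centralizer ((A₀.map (MulAut.conj g).toMonoidHom : Subgroup G) : Set G)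
        = ⊥)
    (h11_3 : Group.IsNilpotent (sigmaCore M)) (hne : sigmaCore M ≠ ⊥) :
    (∀ P : Sylow p M, IsMulCommutative (P : Subgroup M) ∧
        (A ≤ (P : Subgroup M).map M.subtype →
          (∀ x ∈ (P : Subgroup M).map M.subtype, x ^ p = 1 ↔ x ∈ A) ∧
          ¬ Subgroup.normalizer ((((P : Subgroup M).map M.subtype : Subgroup G)) : Set G) ≤ M)) ∧
      sigmaCore M ⊓ Subgroup.centralizer (A : Set G) = ⊥ ∧
      ∃ A₁ : Subgroup G, A₁ ≤ A ∧ Nat.card A₁ = p ∧
        sigmaCore M ⊓ Subgroup.centralizer (A₁ : Set G) = ⊥ := by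
  have hpp : p.Prime := hp.out
  have hpM : p ∣ Nat.card M := by
    have h1 : p ∣ Nat.card A := by rw [hA2]; exact dvd_pow_self p (by norm_num)
    exact h1.trans (Subgroup.card_dvd_of_le hAM)
  have hnN : ∀ P : Sylow p M,
      ¬ Subgroup.normalizer ((((P : Subgroup M).map M.subtype : Subgroup G)) : Set G) ≤ M :=
    fun P h => hpσ ⟨hpp, hpM, P, h⟩
  have hAp : IsPGroup p A := Cfsg.Agent.Lib.Helper23.isEA_isPGroup hA
  obtain ⟨P₀, hP₀⟩ := (hAp.comap_subtype (K := M)).exists_le_sylow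
  have hAP : A ≤ (P₀ : Subgroup M).map M.subtype := by
    intro a ha
    exact ⟨⟨a, hAM ha⟩, hP₀ (Subgroup.mem_subgroupOf.mpr ha), rfl⟩
  obtain ⟨g, hgN, hgM⟩ := SetLike.not_le_iff_exists.mp (hnN P₀)
  have hPM : (P₀ : Subgroup M).map M.subtype ≤ M := Subgroup.map_subtype_le _
  have hPp : IsPGroup p ((P₀ : Subgroup M).map M.subtype) := P₀.isPGroup'.map _
  have hcomm₀ := sec11_comm_of_normalizer hG h1412 M p hpσ A A₀ hAM hA hA2 hA₀ hA₀p hN hr2 hHall
    h11_1b h11_2b h11_3 hne _ hPM hPp hAP g hgN hgM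
  -- all Sylow p-subgroups of M are commutative
  have hcommAll : ∀ Q : Sylow p M, ∀ a ∈ (Q : Subgroup M), ∀ b ∈ (Q : Subgroup M), a * b = b * a := by
    intro Q a ha b hb
    obtain ⟨m, hm⟩ := MulAction.exists_smul_eq M P₀ Q
    have hQ : (Q : Subgroup M) = MulAut.conj m • (P₀ : Subgroup M) := by
      rw [← hm]; rfl
    rw [hQ] at ha hb
    obtain ⟨s, hs, rfl⟩ := (Subgroup.mem_smul_pointwise_iff_exists _ _ _).mp ha
    obtain ⟨t, ht, rfl⟩ := (Subgroup.mem_smul_pointwise_iff_exists _ _ _).mp hb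
    have h1 : (s : G) * (t : G) = (t : G) * (s : G) :=
      hcomm₀ (s : G) ⟨s, hs, rfl⟩ (t : G) ⟨t, ht, rfl⟩
    have h2 : s * t = t * s := Subtype.ext h1
    show m * s * m⁻¹ * (m * t * m⁻¹) = m * t * m⁻¹ * (m * s * m⁻¹)
    calc m * s * m⁻¹ * (m * t * m⁻¹) = m * (s * t) * m⁻¹ := by group
      _ = m * (t * s) * m⁻¹ := by rw [h2]
      _ = m * t * m⁻¹ * (m * s * m⁻¹) := by group
  have hOmega : ∀ Q : Sylow p M, A ≤ (Q : Subgroup M).map M.subtype →
      ∀ x ∈ (Q : Subgroup M).map M.subtype, x ^ p = 1 ↔ x ∈ A := by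
    intro Q hAQ x hx
    constructor
    · intro hxp
      refine mem_of_ea_rank_two hr2 hAM hA hA2 (Subgroup.map_subtype_le _ hx) hxp ?_
      intro a ha
      obtain ⟨x', hx', rfl⟩ := hx
      obtain ⟨a', ha', rfl⟩ := hAQ ha
      exact congrArg Subtype.val (hcommAll Q a' ha' x' hx')
    · intro hxA
      exact hA.2 x hxA
  refine ⟨fun Q => ⟨?_, fun hAQ => ⟨hOmega Q hAQ, hnN Q⟩⟩, ?_⟩
  · rw [isMulCommutative_iff]
    rintro ⟨a, ha⟩ ⟨b, hb⟩
    exact Subtype.ext (hcommAll Q a ha b hb)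
  -- the fixed-point-free point A₁ = g A₀ g⁻¹
  have hconjP' : ∀ w ∈ (P₀ : Subgroup M).map M.subtype,
      g⁻¹ * w * g ∈ (P₀ : Subgroup M).map M.subtype := by
    intro w hw
    have h1 := (Subgroup.mem_normalizer_iff.mp (inv_mem hgN) w).mp hw
    simpa using h1
  have hAg : A ≤ M.map (MulAut.conj g).toMonoidHom := by
    intro a ha
    rw [Cfsg.Agent.Lib.Helper35.BG.mem_map_conj_iff]
    exact hPM (hconjP' a (hAP ha))
  have hA₁A : A₀.map (MulAut.conj g).toMonoidHom ≤ A := by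
    rintro _ ⟨b, hb, rfl⟩
    have hbP : g * b * g⁻¹ ∈ (P₀ : Subgroup M).map M.subtype :=
      (Subgroup.mem_normalizer_iff.mp hgN b).mp (hAP (hA₀ hb))
    apply (hOmega P₀ hAP _ hbP).mp
    show (g * b * g⁻¹) ^ p = 1
    rw [conj_pow, hA.2 b (hA₀ hb)]; group
  have hfpf := h11_2b g hgM hAg
  refine ⟨?_, A₀.map (MulAut.conj g).toMonoidHom, hA₁A, ?_, hfpf⟩
  · rw [eq_bot_iff, ← hfpf]
    exact inf_le_inf_left _ (Cfsg.Agent.Lib.Helper35.BG.centralizer_anti hA₁A)
  · rw [Cfsg.Agent.Lib.Helper35.BG.card_map_conj, hA₀p]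

end Cfsg.Agent.Lib.Helper76.BG
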